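import Cfsg.Agent.H70.CompLabel
import Cfsg.Agent.H70.Bruhat

set_option autoImplicit false
set_option linter.style.haveILetI false

/-! Orbits of `GL_n` on pairs of flags and of `S_n` on pairs of set partitions. -/

namespace Cfsg.Agent.H70

open Matrix

variable {n : ℕ}

/-- Orbits of a group on pairs of cosets. -/
abbrev PairOrbits {G : Type*} [Group G] (H K : Subgroup G) : Type _ :=
  MulAction.orbitRel.Quotient G ((G ⧸ H) × (G ⧸ K))

/-- The average of a product of two permutation characters is a number of orbits. -/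
theorem sum_fixedPointCharacter_mul {G : Type*} [Group G] [Fintype G] (H K : Subgroup G) :
    (Nat.card G : ℂ)⁻¹ * ∑ g : G, Cfsg.fixedPointCharacter H g * Cfsg.fixedPointCharacter K g =
      (Nat.card (PairOrbits H K) : ℂ) := by
  classical
  haveI : Fintype (PairOrbits H K) := Fintype.ofFinite _
  have h := MulAction.sum_card_fixedBy_eq_card_orbits_mul_card_group G ((G ⧸ H) × (G ⧸ K))
  simp only [← Nat.card_eq_fintype_card] at h
  have e : ∀ g : G, (Cfsg.fixedPointCharacter H g * Cfsg.fixedPointCharacter K g : ℂ) =
      (Nat.card (MulAction.fixedBy ((G ⧸ H) × (G ⧸ K)) g) : ℂ) := by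
    intro g
    rw [Cfsg.fixedPointCharacter, Cfsg.fixedPointCharacter, ← Nat.cast_mul, ← Nat.card_prod]
    congr 1
    refine Nat.card_congr
      { toFun := fun z => ⟨(z.1.1, z.2.1), Prod.ext z.1.2 z.2.2⟩
        invFun := fun z => (⟨z.1.1, congrArg Prod.fst z.2⟩, ⟨z.1.2, congrArg Prod.snd z.2⟩)
        left_inv := fun z => rfl
        right_inv := fun z => rfl }
  rw [Finset.sum_congr rfl fun g _ => e g, ← Nat.cast_sum, h, Nat.cast_mul, mul_comm _ (Nat.card G : ℂ),
    inv_mul_cancel_left₀]
  exact Nat.cast_ne_zero.2 Nat.card_pos.ne'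

section Sym

variable (ν μ : Fin n → ℕ) (hν : ∑ i, ν i = n) (hμ : ∑ i, μ i = n)

/-- The labelling attached to a coset of a Young subgroup. -/
def cosetLabel : Equiv.Perm (Fin n) ⧸ Cfsg.youngSubgroup ν → Fin n → Fin n :=
  fun z => Quotient.liftOn' z (fun σ x => blockLabel ν hν (σ⁻¹ x)) (by
    intro σ τ h
    rw [QuotientGroup.leftRel_apply] at h
    funext x
    have := (mem_youngSubgroup_iff ν hν _).1 h (τ⁻¹ x)
    simpa [Equiv.Perm.mul_apply] using this)

theorem cosetLabel_mk (σ : Equiv.Perm (Fin n)) (x : Fin n) :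
    cosetLabel ν hν (QuotientGroup.mk σ) x = blockLabel ν hν (σ⁻¹ x) := rfl

theorem cosetLabel_smul (σ : Equiv.Perm (Fin n)) (z : Equiv.Perm (Fin n) ⧸ Cfsg.youngSubgroup ν) (x : Fin n) :
    cosetLabel ν hν (σ • z) x = cosetLabel ν hν z (σ⁻¹ x) := by
  induction z using QuotientGroup.induction_on with
  | H τ => rw [MulAction.Quotient.smul_mk, cosetLabel_mk, cosetLabel_mk, smul_eq_mul, _root_.mul_inv_rev]; rfl

theorem cosetLabel_injective : Function.Injective (cosetLabel ν hν) := by
  intro z w h
  induction z using QuotientGroup.induction_on with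
  | H σ =>
    induction w using QuotientGroup.induction_on with
    | H τ =>
      rw [QuotientGroup.eq, mem_youngSubgroup_iff ν hν]
      intro i
      have := congrFun h (τ i)
      rw [cosetLabel_mk, cosetLabel_mk] at this
      simpa [Equiv.Perm.mul_apply] using this

theorem exists_cosetLabel_eq (f : Fin n → Fin n)
    (hf : ∀ i, (Finset.univ.filter fun x => f x = i).card = ν i) : ∃ z, cosetLabel ν hν z = f := by
  classical
  have hc : ∀ i, Fintype.card {x // blockLabel ν hν x = i} = Fintype.card {x // f x = i} := fun i => by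
    rw [Fintype.card_subtype, Fintype.card_subtype, card_blockLabel_eq, hf]
  let σ : Equiv.Perm (Fin n) := Equiv.ofFiberEquiv fun i => Fintype.equivOfCardEq (hc i)
  refine ⟨QuotientGroup.mk σ, funext fun x => ?_⟩
  rw [cosetLabel_mk]
  have := Equiv.ofFiberEquiv_map (f := blockLabel ν hν) (g := f) (fun i => Fintype.equivOfCardEq (hc i)) (σ⁻¹ x)
  rw [← this]
  exact congrArg f (σ.apply_symm_apply x)

theorem card_cosetLabel (z : Equiv.Perm (Fin n) ⧸ Cfsg.youngSubgroup ν) (i : Fin n) :
    (Finset.univ.filter fun x => cosetLabel ν hν z x = i).card = ν i := by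
  induction z using QuotientGroup.induction_on with
  | H σ =>
    rw [← card_blockLabel_eq ν hν i]
    exact Finset.card_equiv σ⁻¹ fun x => by
      constructor
      · intro h; exact Finset.mem_filter.2 ⟨Finset.mem_univ _, (Finset.mem_filter.1 h).2⟩
      · intro h; exact Finset.mem_filter.2 ⟨Finset.mem_univ _, (Finset.mem_filter.1 h).2⟩

/-- Matrices of natural numbers with prescribed margins. -/
def Margins : Type :=
  {M : Fin n → Fin n → ℕ // (∀ i, ∑ j, M i j = ν i) ∧ ∀ j, ∑ i, M i j = μ j}

/-- The joint counts of a pair of cosets of Young subgroups. -/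
def jointCounts (z : (Equiv.Perm (Fin n) ⧸ Cfsg.youngSubgroup ν) × (Equiv.Perm (Fin n) ⧸ Cfsg.youngSubgroup μ)) :
    Margins ν μ :=
  ⟨fun i j => (Finset.univ.filter fun x => cosetLabel ν hν z.1 x = i ∧ cosetLabel μ hμ z.2 x = j).card,
    fun i => by
      rw [← card_cosetLabel ν hν z.1 i, Finset.card_eq_sum_card_fiberwise
        (f := cosetLabel μ hμ z.2) (t := Finset.univ) fun _ _ => Finset.mem_univ _]
      simp [Finset.filter_filter],
    fun j => by
      rw [← card_cosetLabel μ hμ z.2 j, Finset.card_eq_sum_card_fiberwise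
        (f := cosetLabel ν hν z.1) (t := Finset.univ) fun _ _ => Finset.mem_univ _]
      simp [Finset.filter_filter, and_comm]⟩

theorem exists_smul_of_jointCounts_eq
    (z w : (Equiv.Perm (Fin n) ⧸ Cfsg.youngSubgroup ν) × (Equiv.Perm (Fin n) ⧸ Cfsg.youngSubgroup μ))
    (h : jointCounts ν μ hν hμ z = jointCounts ν μ hν hμ w) : ∃ σ : Equiv.Perm (Fin n), σ • z = w := by
  classical
  let f := fun x => (cosetLabel ν hν z.1 x, cosetLabel μ hμ z.2 x)
  let g := fun x => (cosetLabel ν hν w.1 x, cosetLabel μ hμ w.2 x)
  have hc : ∀ p, Fintype.card {x // f x = p} = Fintype.card {x // g x = p} := fun p => by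
    rw [Fintype.card_subtype, Fintype.card_subtype]
    have := congrFun (congrFun (congrArg Subtype.val h) p.1) p.2
    simp only [jointCounts] at this
    simpa [f, g, Prod.ext_iff] using this
  let σ : Equiv.Perm (Fin n) := Equiv.ofFiberEquiv fun p => Fintype.equivOfCardEq (hc p)
  have hσ : ∀ x, g (σ x) = f x := fun x =>
    Equiv.ofFiberEquiv_map (fun p => Fintype.equivOfCardEq (hc p)) x
  refine ⟨σ, Prod.ext (cosetLabel_injective ν hν (funext fun x => ?_))
    (cosetLabel_injective μ hμ (funext fun x => ?_))⟩
  · have := congrArg Prod.fst (hσ (σ⁻¹ x))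
    simp only [f, g, show σ (σ⁻¹ x) = x from σ.apply_symm_apply x] at this
    rw [Prod.smul_fst, cosetLabel_smul]; exact this.symm
  · have := congrArg Prod.snd (hσ (σ⁻¹ x))
    simp only [f, g, show σ (σ⁻¹ x) = x from σ.apply_symm_apply x] at this
    rw [Prod.smul_snd, cosetLabel_smul]; exact this.symm

theorem jointCounts_smul (σ : Equiv.Perm (Fin n))
    (z : (Equiv.Perm (Fin n) ⧸ Cfsg.youngSubgroup ν) × (Equiv.Perm (Fin n) ⧸ Cfsg.youngSubgroup μ)) :
    jointCounts ν μ hν hμ (σ • z) = jointCounts ν μ hν hμ z := by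
  apply Subtype.ext
  funext i j
  simp only [jointCounts, Prod.smul_fst, Prod.smul_snd]
  exact Finset.card_equiv σ⁻¹ fun x => by
    simp only [Finset.mem_filter, Finset.mem_univ, true_and, cosetLabel_smul]

include hν hμ in
theorem card_youngOrbits :
    Nat.card (PairOrbits (Cfsg.youngSubgroup ν) (Cfsg.youngSubgroup μ)) = Nat.card (Margins ν μ) := by
  classical
  let Φ : PairOrbits (Cfsg.youngSubgroup ν) (Cfsg.youngSubgroup μ) → Margins ν μ :=
    fun q => Quotient.liftOn' q (jointCounts ν μ hν hμ) fun z w h => by
      obtain ⟨σ, hσ⟩ := MulAction.mem_orbit_iff.1 (MulAction.orbitRel_apply.1 h)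
      rw [← hσ]; exact jointCounts_smul ν μ hν hμ σ w
  refine Nat.card_congr (Equiv.ofBijective Φ ⟨?_, ?_⟩)
  · intro a b h
    induction a using Quotient.inductionOn' with
    | _ z =>
      induction b using Quotient.inductionOn' with
      | _ w =>
        obtain ⟨σ, hσ⟩ := exists_smul_of_jointCounts_eq ν μ hν hμ w z h.symm
        exact Quotient.sound' (MulAction.orbitRel_apply.2 ⟨σ, hσ⟩)
  · rintro ⟨M, hr, hc⟩
    have hcard : Fintype.card (Σ p : Fin n × Fin n, Fin (M p.1 p.2)) = Fintype.card (Fin n) := by
      rw [Fintype.card_sigma, Fintype.card_fin, Fintype.sum_prod_type]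
      simp [hr, hν]
    let e := (Fintype.equivOfCardEq hcard).symm
    have hfib : ∀ i j, (Finset.univ.filter fun x => (e x).1 = (i, j)).card = M i j := by
      intro i j
      rw [← Fintype.card_subtype, Fintype.card_congr (e.subtypeEquivOfSubtype (p := fun s => s.1 = (i, j)))]
      rw [Fintype.card_congr (Equiv.sigmaSubtype (i, j)), Fintype.card_fin]
    obtain ⟨z1, hz1⟩ := exists_cosetLabel_eq ν hν (fun x => (e x).1.1) fun i => by
      rw [← hr i, Finset.card_eq_sum_card_fiberwise (f := fun x => (e x).1.2) (t := Finset.univ)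
        fun _ _ => Finset.mem_univ _]
      refine Finset.sum_congr rfl fun j _ => ?_
      rw [← hfib i j, Finset.filter_filter]
      simp [Prod.ext_iff]
    obtain ⟨z2, hz2⟩ := exists_cosetLabel_eq μ hμ (fun x => (e x).1.2) fun j => by
      rw [← hc j, Finset.card_eq_sum_card_fiberwise (f := fun x => (e x).1.1) (t := Finset.univ)
        fun _ _ => Finset.mem_univ _]
      refine Finset.sum_congr rfl fun i _ => ?_
      rw [← hfib i j, Finset.filter_filter]
      simp [Prod.ext_iff, and_comm]
    refine ⟨Quotient.mk'' (z1, z2), Subtype.ext (funext fun i => funext fun j => ?_)⟩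
    show (jointCounts ν μ hν hμ (z1, z2)).1 i j = M i j
    rw [← hfib i j]
    simp [jointCounts, hz1, hz2, Prod.ext_iff]

end Sym

section GLSide

variable {F : Type*} [Field F]

/-- The coordinate subspace of vectors supported in `S`. -/
def coordSub (S : Finset (Fin n)) : Submodule F (Fin n → F) where
  carrier := {v | ∀ x ∉ S, v x = 0}
  zero_mem' := fun _ _ => rfl
  add_mem' := fun hv hw x hx => by simp [hv x hx, hw x hx]
  smul_mem' := fun c v hv x hx => by simp [hv x hx]

theorem finrank_coordSub (S : Finset (Fin n)) : Module.finrank F (coordSub (F := F) S) = S.card := by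
  classical
  let e : coordSub (F := F) S ≃ₗ[F] (S → F) :=
    { toFun := fun v x => v.1 x.1
      map_add' := fun _ _ => rfl
      map_smul' := fun _ _ => rfl
      invFun := fun f => ⟨fun x => if h : x ∈ S then f ⟨x, h⟩ else 0, fun x hx => by simp [hx]⟩
      left_inv := fun v => Subtype.ext (funext fun x => by
        by_cases h : x ∈ S
        · simp [h]
        · simp [h, v.2 x h])
      right_inv := fun f => funext fun x => by simp }
  rw [e.finrank_eq, Module.finrank_fintype_fun_eq_card, Fintype.card_coe]

theorem mem_coordSub {S : Finset (Fin n)} {v : Fin n → F} : v ∈ coordSub S ↔ ∀ x ∉ S, v x = 0 := Iff.rfl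

theorem coordSub_inf (S T : Finset (Fin n)) : coordSub (F := F) (S ∩ T) = coordSub S ⊓ coordSub T := by
  ext v
  simp only [Submodule.mem_inf, mem_coordSub, Finset.mem_inter, not_and_or]
  exact ⟨fun h => ⟨fun x hx => h x (Or.inl hx), fun x hx => h x (Or.inr hx)⟩,
    fun h x hx => hx.elim (h.1 x) (h.2 x)⟩

/-- The image of a subspace under an invertible matrix. -/
def glMap (g : GL (Fin n) F) (U : Submodule F (Fin n → F)) : Submodule F (Fin n → F) :=
  U.map (Matrix.mulVecLin (g : Matrix (Fin n) (Fin n) F))

theorem glMap_mul (g h : GL (Fin n) F) (U : Submodule F (Fin n → F)) : glMap (g * h) U = glMap g (glMap h U) := by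
  rw [glMap, glMap, glMap, ← Submodule.map_comp, ← Matrix.mulVecLin_mul]; rfl

theorem glMap_one (U : Submodule F (Fin n → F)) : glMap (1 : GL (Fin n) F) U = U := by
  rw [glMap]; simp

theorem glMap_injective (g : GL (Fin n) F) :
    Function.Injective (Matrix.mulVecLin (g : Matrix (Fin n) (Fin n) F)) := by
  intro u v h
  have := congrArg (Matrix.mulVecLin ((g⁻¹ : GL (Fin n) F) : Matrix (Fin n) (Fin n) F)) h
  simpa [Matrix.mulVec_mulVec] using this

theorem finrank_glMap_inf (g : GL (Fin n) F) (U W : Submodule F (Fin n → F)) :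
    Module.finrank F (glMap g U ⊓ glMap g W : Submodule F (Fin n → F)) = Module.finrank F (U ⊓ W : Submodule F (Fin n → F)) := by
  rw [glMap, glMap, ← Submodule.map_inf _ (glMap_injective g)]
  exact ((U ⊓ W).equivMapOfInjective _ (glMap_injective g)).finrank_eq.symm

theorem glMap_parabolic (ν : Fin n → ℕ) (hν : ∑ i, ν i = n) {g : GL (Fin n) F}
    (hg : g ∈ Cfsg.parabolicGL n F ν) (i : Fin n) :
    glMap g (coordSub (Finset.univ.filter fun x => blockLabel ν hν x ≤ i)) =
      coordSub (Finset.univ.filter fun x => blockLabel ν hν x ≤ i) := by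
  classical
  have hle : ∀ g ∈ Cfsg.parabolicGL n F ν,
      glMap g (coordSub (Finset.univ.filter fun x => blockLabel ν hν x ≤ i)) ≤
        coordSub (Finset.univ.filter fun x => blockLabel ν hν x ≤ i) := by
    intro g hg
    rintro _ ⟨v, hv, rfl⟩
    rw [mem_coordSub]
    intro x hx
    simp only [Finset.mem_filter, Finset.mem_univ, true_and, not_le] at hx
    rw [Matrix.mulVecLin_apply, Matrix.mulVec, dotProduct]
    refine Finset.sum_eq_zero fun y _ => ?_
    by_cases hy : blockLabel ν hν y ≤ i
    · rw [(mem_parabolicGL_iff ν hν g).1 hg (lt_of_le_of_lt hy hx), zero_mul]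
    · rw [hv y (by simp [not_le.1 hy]), mul_zero]
  refine le_antisymm (hle g hg) ?_
  conv_lhs => rw [← glMap_one (coordSub (Finset.univ.filter fun x => blockLabel ν hν x ≤ i)),
    ← mul_inv_cancel g, glMap_mul]
  exact Submodule.map_mono (hle g⁻¹ (inv_mem hg))

theorem glMap_perm (σ : Equiv.Perm (Fin n)) (S : Finset (Fin n)) :
    glMap (permGL σ : GL (Fin n) F) (coordSub S) = coordSub (S.map σ.toEmbedding) := by
  classical
  have happ : ∀ (σ : Equiv.Perm (Fin n)) (v : Fin n → F) (x : Fin n),
      (Matrix.mulVecLin ((permGL σ : GL (Fin n) F) : Matrix (Fin n) (Fin n) F) v) x = v (σ⁻¹ x) := by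
    intro σ v x
    rw [Matrix.mulVecLin_apply, Matrix.mulVec, dotProduct, Finset.sum_eq_single (σ⁻¹ x)]
    · simp [permGL_apply]
    · intro y _ hy
      rw [permGL_apply, if_neg, zero_mul]
      rintro rfl; exact hy (by simp)
    · simp
  ext v
  constructor
  · rintro ⟨w, hw, rfl⟩
    rw [mem_coordSub]
    intro x hx
    rw [happ]
    exact hw _ fun h => hx (Finset.mem_map.2 ⟨_, h, by simp⟩)
  · intro hv
    refine ⟨fun y => v (σ y), fun y hy => hv _ fun h => hy (by simpa using h), funext fun x => ?_⟩
    rw [happ]; simp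

theorem permGL_mem_parabolic (ν : Fin n → ℕ) (hν : ∑ i, ν i = n) {σ : Equiv.Perm (Fin n)}
    (h : σ ∈ Cfsg.youngSubgroup ν) : (permGL σ : GL (Fin n) F) ∈ Cfsg.parabolicGL n F ν := by
  rw [mem_parabolicGL_iff ν hν]
  intro x y hxy
  rw [permGL_apply, if_neg]
  rintro rfl
  rw [(mem_youngSubgroup_iff ν hν σ).1 h y] at hxy
  exact lt_irrefl _ hxy

theorem isUpperTri_mem_parabolic (ν : Fin n → ℕ) (hν : ∑ i, ν i = n) {g : GL (Fin n) F} (h : IsUpperTri g) :
    g ∈ Cfsg.parabolicGL n F ν := by
  rw [mem_parabolicGL_iff ν hν]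
  intro x y hxy
  exact h ((blockLabel_mono ν hν).reflect_lt hxy)

/-- The orbit counts of `GL_n` and `S_n` agree. -/
theorem card_glOrbits (ν μ : Fin n → ℕ) (hν : ∑ i, ν i = n) (hμ : ∑ i, μ i = n) :
    Nat.card (PairOrbits (Cfsg.parabolicGL n F ν) (Cfsg.parabolicGL n F μ)) =
      Nat.card (PairOrbits (Cfsg.youngSubgroup ν) (Cfsg.youngSubgroup μ)) := by
  classical
  let P := Cfsg.parabolicGL n F ν
  let Q := Cfsg.parabolicGL n F μ
  let fP : Equiv.Perm (Fin n) ⧸ Cfsg.youngSubgroup ν → GL (Fin n) F ⧸ P := fun z =>
    Quotient.liftOn' z (fun σ => QuotientGroup.mk (permGL σ)) fun σ τ h => by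
      rw [QuotientGroup.leftRel_apply] at h
      rw [QuotientGroup.eq, ← map_inv, ← map_mul]
      exact permGL_mem_parabolic ν hν h
  let fQ : Equiv.Perm (Fin n) ⧸ Cfsg.youngSubgroup μ → GL (Fin n) F ⧸ Q := fun z =>
    Quotient.liftOn' z (fun σ => QuotientGroup.mk (permGL σ)) fun σ τ h => by
      rw [QuotientGroup.leftRel_apply] at h
      rw [QuotientGroup.eq, ← map_inv, ← map_mul]
      exact permGL_mem_parabolic μ hμ h
  let Φ : PairOrbits (Cfsg.youngSubgroup ν) (Cfsg.youngSubgroup μ) → PairOrbits P Q := fun q =>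
    Quotient.liftOn' q (fun z => Quotient.mk'' (fP z.1, fQ z.2)) fun z w h => by
      obtain ⟨σ, hσ⟩ := MulAction.mem_orbit_iff.1 (MulAction.orbitRel_apply.1 h)
      refine Quotient.sound' (MulAction.orbitRel_apply.2 ⟨permGL σ, ?_⟩)
      rw [← hσ]
      obtain ⟨w1, w2⟩ := w
      induction w1 using QuotientGroup.induction_on with
      | H a =>
        induction w2 using QuotientGroup.induction_on with
        | H b =>
          refine Prod.ext ?_ ?_
          · show permGL σ • (QuotientGroup.mk (permGL a) : GL (Fin n) F ⧸ P) = QuotientGroup.mk (permGL (σ * a))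
            rw [map_mul]; rfl
          · show permGL σ • (QuotientGroup.mk (permGL b) : GL (Fin n) F ⧸ Q) = QuotientGroup.mk (permGL (σ * b))
            rw [map_mul]; rfl
  refine (Nat.card_congr (Equiv.ofBijective Φ ⟨?_, ?_⟩)).symm
  · intro a b h
    induction a using Quotient.inductionOn' with
    | _ z =>
      induction b using Quotient.inductionOn' with
      | _ w =>
        obtain ⟨z1, z2⟩ := z
        obtain ⟨w1, w2⟩ := w
        induction z1 using QuotientGroup.induction_on with
        | H s1 =>
          induction z2 using QuotientGroup.induction_on with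
          | H s2 =>
            induction w1 using QuotientGroup.induction_on with
            | H t1 =>
              induction w2 using QuotientGroup.induction_on with
              | H t2 =>
                obtain ⟨g, hg⟩ := MulAction.mem_orbit_iff.1 (MulAction.orbitRel_apply.1 (Quotient.exact' h))
                have hg1 : ((permGL s1)⁻¹ * (g * permGL t1) : GL (Fin n) F) ∈ P :=
                  QuotientGroup.eq.1 (congrArg Prod.fst hg).symm
                have hg2 : ((permGL s2)⁻¹ * (g * permGL t2) : GL (Fin n) F) ∈ Q :=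
                  QuotientGroup.eq.1 (congrArg Prod.snd hg).symm
                suffices hJ : jointCounts ν μ hν hμ (QuotientGroup.mk s1, QuotientGroup.mk s2) =
                    jointCounts ν μ hν hμ (QuotientGroup.mk t1, QuotientGroup.mk t2) by
                  obtain ⟨σ, hσ⟩ := exists_smul_of_jointCounts_eq ν μ hν hμ _ _ hJ.symm
                  exact Quotient.sound' (MulAction.orbitRel_apply.2 ⟨σ, hσ⟩)
                have hcum : ∀ i j : Fin n,
                    (Finset.univ.filter fun x => blockLabel ν hν (s1⁻¹ x) ≤ i ∧ blockLabel μ hμ (s2⁻¹ x) ≤ j).card =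
                    (Finset.univ.filter fun x => blockLabel ν hν (t1⁻¹ x) ≤ i ∧ blockLabel μ hμ (t2⁻¹ x) ≤ j).card := by
                  intro i j
                  have key : ∀ a b : Equiv.Perm (Fin n),
                      (Finset.univ.filter fun x => blockLabel ν hν (a⁻¹ x) ≤ i ∧ blockLabel μ hμ (b⁻¹ x) ≤ j).card =
                      Module.finrank F (glMap (permGL a : GL (Fin n) F)
                          (coordSub (Finset.univ.filter fun x => blockLabel ν hν x ≤ i)) ⊓
                        glMap (permGL b) (coordSub (Finset.univ.filter fun x => blockLabel μ hμ x ≤ j)) :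
                        Submodule F (Fin n → F)) := by
                    intro a b
                    rw [glMap_perm, glMap_perm, ← coordSub_inf, finrank_coordSub]
                    congr 1
                    ext x
                    simp
                  have e1 : g * permGL t1 = permGL s1 * ((permGL s1)⁻¹ * (g * permGL t1)) :=
                    (mul_inv_cancel_left _ _).symm
                  have e2 : g * permGL t2 = permGL s2 * ((permGL s2)⁻¹ * (g * permGL t2)) :=
                    (mul_inv_cancel_left _ _).symm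
                  rw [key, key, ← finrank_glMap_inf g (glMap (permGL t1) _), ← glMap_mul, ← glMap_mul, e1, e2,
                    glMap_mul (permGL s1), glMap_mul (permGL s2), glMap_parabolic ν hν hg1, glMap_parabolic μ hμ hg2]
                apply Subtype.ext
                refine eq_of_sum_le_eq _ _ fun i => ?_
                refine eq_of_sum_le_eq _ _ fun j => ?_
                simp only [jointCounts, cosetLabel_mk, Finset.sum_apply]
                have hsum : ∀ a b : Equiv.Perm (Fin n),
                    ∑ j' ∈ Finset.univ.filter (fun k : Fin n => k ≤ j), ∑ i' ∈ Finset.univ.filter (fun k : Fin n => k ≤ i),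
                      (Finset.univ.filter fun x => blockLabel ν hν (a⁻¹ x) = i' ∧ blockLabel μ hμ (b⁻¹ x) = j').card =
                    (Finset.univ.filter fun x => blockLabel ν hν (a⁻¹ x) ≤ i ∧ blockLabel μ hμ (b⁻¹ x) ≤ j).card := by
                  intro a b
                  rw [← Finset.sum_product', Finset.card_eq_sum_card_fiberwise
                    (f := fun x => (blockLabel μ hμ (b⁻¹ x), blockLabel ν hν (a⁻¹ x)))
                    (t := (Finset.univ.filter fun k : Fin n => k ≤ j) ×ˢ (Finset.univ.filter fun k : Fin n => k ≤ i))]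
                  · refine Finset.sum_congr rfl fun p hp => congrArg Finset.card ?_
                    simp only [Finset.mem_product, Finset.mem_filter, Finset.mem_univ, true_and] at hp
                    rw [Finset.filter_filter]
                    refine Finset.filter_congr fun x _ => ?_
                    rw [Prod.ext_iff]
                    exact ⟨fun e => ⟨⟨e.1 ▸ hp.2, e.2 ▸ hp.1⟩, e.2, e.1⟩, fun e => ⟨e.2.2, e.2.1⟩⟩
                  · intro x hx
                    simp only [Finset.coe_filter, Finset.mem_univ, true_and, Set.mem_ofPred_eq] at hx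
                    exact Finset.mem_coe.2 (Finset.mem_product.2
                      ⟨Finset.mem_filter.2 ⟨Finset.mem_univ _, hx.2⟩, Finset.mem_filter.2 ⟨Finset.mem_univ _, hx.1⟩⟩)
                exact (hsum s1 s2).trans ((hcum i j).trans (hsum t1 t2).symm)
  · intro q
    induction q using Quotient.inductionOn' with
    | _ z =>
      obtain ⟨z1, z2⟩ := z
      induction z1 using QuotientGroup.induction_on with
      | H g1 =>
        induction z2 using QuotientGroup.induction_on with
        | H g2 =>
          obtain ⟨b, c, σ, hb, hc, e⟩ := bruhat (g1⁻¹ * g2)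
          refine ⟨Quotient.mk'' (QuotientGroup.mk 1, QuotientGroup.mk σ), Quotient.sound' ?_⟩
          refine MulAction.orbitRel_apply.2 ⟨(g1 * b)⁻¹, Prod.ext ?_ ?_⟩
          · show (g1 * b)⁻¹ • (QuotientGroup.mk g1 : GL (Fin n) F ⧸ P) = QuotientGroup.mk (permGL 1)
            rw [MulAction.Quotient.smul_mk, map_one, smul_eq_mul, QuotientGroup.eq]
            have : ((g1 * b)⁻¹ * g1)⁻¹ * 1 = b := by group
            rw [this]; exact isUpperTri_mem_parabolic ν hν hb
          · show (g1 * b)⁻¹ • (QuotientGroup.mk g2 : GL (Fin n) F ⧸ Q) = QuotientGroup.mk (permGL σ)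
            rw [MulAction.Quotient.smul_mk, smul_eq_mul, QuotientGroup.eq]
            have : ((g1 * b)⁻¹ * g2)⁻¹ * permGL σ = c⁻¹ := by
              have e' : g2 = g1 * (b * permGL σ * c) := by rw [← e, mul_inv_cancel_left]
              rw [e']; group
            rw [this]; exact isUpperTri_mem_parabolic μ hμ hc.inv

end GLSide

end Cfsg.Agent.H70
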