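import Mathlib

set_option autoImplicit false
set_option linter.style.haveILetI false

/-! The Cauchy determinant identity, read off at coefficient level. -/

namespace Cfsg.Agent.H70

open Matrix MvPowerSeries

/-- The Cauchy determinant in product form, over a field. -/
theorem cauchy_det_field {n : ℕ} {K : Type*} [Field K] (x y : Fin n → K)
    (hy : Function.Injective y) (hy0 : ∀ i, y i ≠ 0) :
    (Matrix.of fun i j => ∏ l ∈ Finset.univ.erase j, (1 - x i * y l)).det =
      (vandermonde x).det * (vandermonde y).det := by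
  classical
  let p : Fin n → Polynomial K := fun j => ∏ l ∈ Finset.univ.erase j, (1 - Polynomial.C (y l) * Polynomial.X)
  let C : Matrix (Fin n) (Fin n) K := Matrix.of fun k j => (p j).coeff k.val
  have hmul : ∀ z : Fin n → K,
      (Matrix.of fun i j => ∏ l ∈ Finset.univ.erase j, (1 - z i * y l)) = vandermonde z * C := by
    intro z
    ext i j
    have hd : (p j).natDegree < n := by
      refine lt_of_le_of_lt ((Polynomial.natDegree_prod_le _ _).trans (Finset.sum_le_sum (g := fun _ => 1) fun l _ => ?_)) ?_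
      · refine (Polynomial.natDegree_sub_le _ _).trans ?_
        rw [Polynomial.natDegree_one, Nat.zero_max]
        exact (Polynomial.natDegree_C_mul_le _ _).trans Polynomial.natDegree_X_le
      · have := j.pos
        simp; omega
    have := Polynomial.eval_eq_sum_range' hd (z i)
    rw [Matrix.mul_apply, Matrix.of_apply]
    simp only [vandermonde_apply, C, Matrix.of_apply]
    rw [Fin.sum_univ_eq_sum_range (fun k => z i ^ k * (p j).coeff k)]
    simp only [p, Polynomial.eval_prod, Polynomial.eval_sub, Polynomial.eval_one, Polynomial.eval_mul,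
      Polynomial.eval_C, Polynomial.eval_X] at this
    rw [Finset.prod_congr rfl fun l _ => by rw [mul_comm (z i)], this]
    exact Finset.sum_congr rfl fun k _ => mul_comm _ _
  have hC : C.det = (vandermonde y).det := by
    have h := congrArg Matrix.det (hmul fun i => (y i)⁻¹)
    rw [det_mul] at h
    have hdiag : (Matrix.of fun i j => ∏ l ∈ Finset.univ.erase j, (1 - (y i)⁻¹ * y l)) =
        diagonal fun j => ∏ l ∈ Finset.univ.erase j, (1 - (y j)⁻¹ * y l) := by
      ext i j
      by_cases hij : i = j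
      · subst hij; simp
      · rw [diagonal_apply_ne _ hij, Matrix.of_apply]
        exact Finset.prod_eq_zero (Finset.mem_erase.2 ⟨hij, Finset.mem_univ _⟩) (by rw [inv_mul_cancel₀ (hy0 i)]; ring)
    rw [hdiag, det_diagonal, det_vandermonde] at h
    have hne : ∏ i : Fin n, ∏ j ∈ Finset.Ioi i, ((y j)⁻¹ - (y i)⁻¹) ≠ 0 := by
      refine Finset.prod_ne_zero_iff.2 fun i _ => Finset.prod_ne_zero_iff.2 fun j hj => sub_ne_zero.2 fun e => ?_
      exact (Finset.mem_Ioi.1 hj).ne (hy (inv_injective e)).symm
    refine mul_left_cancel₀ hne ?_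
    rw [← h, det_vandermonde, ← Finset.prod_mul_distrib]
    calc ∏ j : Fin n, ∏ l ∈ Finset.univ.erase j, (1 - (y j)⁻¹ * y l)
        = ∏ i : Fin n, ∏ j ∈ ({i}ᶜ : Finset (Fin n)), (1 - (y i)⁻¹ * y j) :=
          Finset.prod_congr rfl fun i _ => Finset.prod_congr (by ext; simp) fun _ _ => rfl
      _ = ∏ i : Fin n, ∏ j ∈ Finset.Ioi i, (1 - (y i)⁻¹ * y j) * (1 - (y j)⁻¹ * y i) :=
          (Finset.prod_prod_Ioi_mul_eq_prod_prod_off_diag fun j i => 1 - (y i)⁻¹ * y j).symm
      _ = _ := by
          refine Finset.prod_congr rfl fun i _ => ?_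
          rw [← Finset.prod_mul_distrib]
          refine Finset.prod_congr rfl fun j _ => ?_
          field_simp [hy0 i, hy0 j]
  rw [hmul, det_mul, hC]

variable {n : ℕ}

/-- The variables `x_i` and `y_j`. -/
abbrev XY (n : ℕ) := MvPowerSeries (Fin n ⊕ Fin n) ℤ

/-- The Cauchy determinant in product form, for indeterminates. -/
theorem cauchy_det_series :
    (Matrix.of fun i j => ∏ l ∈ Finset.univ.erase j,
        (1 - (X (.inl i) : XY n) * X (.inr l))).det =
      (vandermonde fun i => (X (.inl i) : XY n)).det * (vandermonde fun i => (X (.inr i) : XY n)).det := by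
  classical
  let P := MvPolynomial (Fin n ⊕ Fin n) ℤ
  have hpoly : (Matrix.of fun i j => ∏ l ∈ Finset.univ.erase j,
        (1 - (MvPolynomial.X (.inl i) : P) * MvPolynomial.X (.inr l))).det =
      (vandermonde fun i => (MvPolynomial.X (.inl i) : P)).det *
        (vandermonde fun i => (MvPolynomial.X (.inr i) : P)).det := by
    let φ := algebraMap P (FractionRing P)
    have hφ : Function.Injective φ := IsFractionRing.injective P (FractionRing P)
    apply hφ
    rw [map_mul, RingHom.map_det, RingHom.map_det, RingHom.map_det]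
    convert cauchy_det_field (fun i => φ (MvPolynomial.X (.inl i))) (fun i => φ (MvPolynomial.X (.inr i)))
      (fun i j h => Sum.inr_injective (MvPolynomial.X_injective (hφ h)))
      (fun i h => MvPolynomial.X_ne_zero (R := ℤ) (Sum.inr i) (hφ (h.trans (map_zero φ).symm))) using 3 <;>
      ext i j <;> simp
  let c : P →+* XY n := MvPolynomial.coeToMvPowerSeries.ringHom
  have h := congrArg c hpoly
  rw [map_mul, RingHom.map_det, RingHom.map_det, RingHom.map_det] at h
  have hcX : ∀ s, c (MvPolynomial.X s) = (X s : XY n) := fun s => MvPolynomial.coe_X s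
  convert h using 3 <;> ext i j : 2 <;> simp [map_prod, hcX]

/-- The geometric series in `x_i y_j`. -/
noncomputable def geom (p : Fin n × Fin n) : XY n := fun d =>
  if (∀ s, s ≠ Sum.inl p.1 → s ≠ Sum.inr p.2 → d s = 0) ∧ d (Sum.inl p.1) = d (Sum.inr p.2) then 1 else 0

theorem coeff_geom (p : Fin n × Fin n) (d : Fin n ⊕ Fin n →₀ ℕ) :
    coeff d (geom p) =
      if (∀ s, s ≠ Sum.inl p.1 → s ≠ Sum.inr p.2 → d s = 0) ∧ d (Sum.inl p.1) = d (Sum.inr p.2) then 1 else 0 := rfl

theorem one_sub_mul_geom (p : Fin n × Fin n) : (1 - X (.inl p.1) * X (.inr p.2)) * geom p = 1 := by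
  classical
  ext d
  rw [sub_mul, one_mul, map_sub, X, X, monomial_mul_monomial, one_mul, coeff_monomial_mul, coeff_one]
  set e : Fin n ⊕ Fin n →₀ ℕ := Finsupp.single (Sum.inl p.1) 1 + Finsupp.single (Sum.inr p.2) 1 with he
  have heval : ∀ s, e s = (if s = Sum.inl p.1 then 1 else 0) + (if s = Sum.inr p.2 then 1 else 0) := by
    intro s; simp [he, Finsupp.single_apply, eq_comm]
  rw [coeff_geom, coeff_geom, one_mul]
  by_cases hd : d = 0
  · subst hd
    rw [if_pos rfl, if_neg (show ¬ e ≤ 0 from fun h => by simpa [heval] using h (Sum.inl p.1)), sub_zero, if_pos]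
    simp
  rw [if_neg hd]
  by_cases hc : (∀ s, s ≠ Sum.inl p.1 → s ≠ Sum.inr p.2 → d s = 0) ∧ d (Sum.inl p.1) = d (Sum.inr p.2)
  · have hpos : d (Sum.inl p.1) ≠ 0 := by
      intro h0
      refine hd (Finsupp.ext fun s => ?_)
      rcases eq_or_ne s (Sum.inl p.1) with rfl | h1
      · exact h0
      · rcases eq_or_ne s (Sum.inr p.2) with rfl | h2
        · exact hc.2 ▸ h0
        · exact hc.1 s h1 h2
    have hle : e ≤ d := by
      intro s
      rw [heval]
      by_cases h1 : s = Sum.inl p.1
      · subst h1; simp; omega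
      · by_cases h2 : s = Sum.inr p.2
        · subst h2; simp; have := hc.2; omega
        · simp [h1, h2]
    rw [if_pos hc, if_pos hle, if_pos, sub_self]
    refine ⟨fun s h1 h2 => ?_, ?_⟩
    · simp [hc.1 s h1 h2]
    · simp [heval, hc.2]
  · rw [if_neg hc]
    by_cases hle : e ≤ d
    · rw [if_pos hle, if_neg, sub_zero]
      rintro ⟨h1, h2⟩
      refine hc ⟨fun s hs1 hs2 => ?_, ?_⟩
      · simpa [heval, hs1, hs2] using h1 s hs1 hs2
      · have a := hle (Sum.inl p.1)
        have b := hle (Sum.inr p.2)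
        simp [heval] at a b h2
        omega
    · rw [if_neg hle, sub_zero]

/-- Non-negative integer matrices supported in `S` with margins given by `d`. -/
def MarginsOn (S : Finset (Fin n × Fin n)) (d : Fin n ⊕ Fin n →₀ ℕ) : Type :=
  {M : Fin n → Fin n → ℕ // (∀ i j, (i, j) ∉ S → M i j = 0) ∧
    (∀ i, ∑ j, M i j = d (Sum.inl i)) ∧ ∀ j, ∑ i, M i j = d (Sum.inr j)}

theorem coeff_prod_geom (S : Finset (Fin n × Fin n)) (d : Fin n ⊕ Fin n →₀ ℕ) :
    coeff d (∏ p ∈ S, geom p) = (Nat.card (MarginsOn S d) : ℤ) := by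
  classical
  rw [coeff_prod]
  simp only [coeff_geom, Finset.prod_boole]
  trans ((((S.finsuppAntidiag d).filter fun l => ∀ p ∈ S,
      (∀ s, s ≠ Sum.inl p.1 → s ≠ Sum.inr p.2 → l p s = 0) ∧ l p (Sum.inl p.1) = l p (Sum.inr p.2)).card : ℕ) : ℤ)
  · rw [Finset.card_filter, Nat.cast_sum]
    refine Finset.sum_congr rfl fun l _ => ?_
    split_ifs <;> simp
  congr 1
  rw [← Fintype.card_coe, ← Nat.card_eq_fintype_card]
  let mk : (Fin n → Fin n → ℕ) → (Fin n × Fin n →₀ (Fin n ⊕ Fin n →₀ ℕ)) := fun M =>
    Finsupp.equivFunOnFinite.symm fun p =>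
      if p ∈ S then Finsupp.single (Sum.inl p.1) (M p.1 p.2) + Finsupp.single (Sum.inr p.2) (M p.1 p.2) else 0
  have hsum : ∀ (l : Fin n × Fin n →₀ (Fin n ⊕ Fin n →₀ ℕ)),
      (∀ p ∈ S, (∀ s, s ≠ Sum.inl p.1 → s ≠ Sum.inr p.2 → l p s = 0) ∧ l p (Sum.inl p.1) = l p (Sum.inr p.2)) →
      (∀ p, p ∉ S → l p = 0) →
      (∀ i, ∑ j, l (i, j) (Sum.inl i) = (∑ p ∈ S, l p) (Sum.inl i)) ∧
      (∀ j, ∑ i, l (i, j) (Sum.inl i) = (∑ p ∈ S, l p) (Sum.inr j)) := by
    intro l hl hout
    have ext : ∀ s, (∑ p ∈ S, l p) s = ∑ p : Fin n × Fin n, l p s := by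
      intro s
      rw [Finsupp.finsetSum_apply]
      exact Finset.sum_subset (Finset.subset_univ _) fun p _ hp => by rw [hout p hp]; rfl
    have hcomp : ∀ p : Fin n × Fin n, l p (Sum.inl p.1) = l p (Sum.inr p.2) ∧
        ∀ s, s ≠ Sum.inl p.1 → s ≠ Sum.inr p.2 → l p s = 0 := by
      intro p
      by_cases hp : p ∈ S
      · exact ⟨(hl p hp).2, (hl p hp).1⟩
      · rw [hout p hp]; simp
    constructor
    · intro i
      rw [ext, Fintype.sum_prod_type]
      symm
      refine Finset.sum_eq_single (f := fun x => ∑ y, l (x, y) (Sum.inl i)) i ?_ ?_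
      · intro b _ hb
        exact Finset.sum_eq_zero fun j _ => (hcomp (b, j)).2 _ (by simpa using Ne.symm hb) (by simp)
      · simp
    · intro j
      rw [ext, Fintype.sum_prod_type]
      refine Finset.sum_congr rfl fun i _ => ?_
      rw [Finset.sum_eq_single j]
      · exact (hcomp (i, j)).1
      · intro b _ hb
        exact (hcomp (i, b)).2 _ (by simp) (by simpa using Ne.symm hb)
      · simp
  refine Nat.card_congr
    { toFun := fun l => ⟨fun i j => l.1 (i, j) (Sum.inl i), ?_⟩
      invFun := fun M => ⟨mk M.1, ?_⟩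
      left_inv := ?_
      right_inv := ?_ }
  · obtain ⟨l, hl⟩ := l
    simp only [Finset.mem_filter, Finset.mem_finsuppAntidiag] at hl
    have hout : ∀ p, p ∉ S → l p = 0 := fun p hp => Finsupp.notMem_support_iff.1 fun h => hp (hl.1.2 h)
    obtain ⟨h1, h2⟩ := hsum l hl.2 hout
    refine ⟨fun i j h => by simp [hout _ h], fun i => ?_, fun j => ?_⟩
    · rw [h1, hl.1.1]
    · rw [h2, hl.1.1]
  · obtain ⟨M, hM0, hMr, hMc⟩ := M
    have hout : ∀ p, p ∉ S → mk M p = 0 := fun p hp => by simp [mk, hp]
    have hprop : ∀ p ∈ S, (∀ s, s ≠ Sum.inl p.1 → s ≠ Sum.inr p.2 → mk M p s = 0) ∧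
        mk M p (Sum.inl p.1) = mk M p (Sum.inr p.2) := fun p hp => by
      refine ⟨fun s h1 h2 => ?_, ?_⟩
      · simp [mk, hp, Finsupp.single_eq_of_ne h1, Finsupp.single_eq_of_ne h2]
      · simp [mk, hp]
    have hval : ∀ i j, mk M (i, j) (Sum.inl i) = M i j := by
      intro i j
      by_cases hp : (i, j) ∈ S
      · simp [mk, hp]
      · simp [mk, hp, hM0 i j hp]
    obtain ⟨h1, h2⟩ := hsum (mk M) hprop hout
    simp only [Finset.mem_filter, Finset.mem_finsuppAntidiag]
    refine ⟨⟨Finsupp.ext fun s => ?_, fun p hp => ?_⟩, hprop⟩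
    · cases s with
      | inl i => rw [← h1]; simp [hval, hMr]
      | inr j => rw [← h2]; simp [hval, hMc]
    · by_contra h; exact Finsupp.mem_support_iff.1 hp (hout p h)
  · rintro ⟨l, hl⟩
    simp only [Finset.mem_filter, Finset.mem_finsuppAntidiag] at hl
    apply Subtype.ext
    refine Finsupp.ext fun p => ?_
    by_cases hp : p ∈ S
    · refine Finsupp.ext fun s => ?_
      obtain ⟨ha, hb⟩ := hl.2 p hp
      by_cases h1 : s = Sum.inl p.1
      · subst h1; simp [mk, hp]
      · by_cases h2 : s = Sum.inr p.2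
        · subst h2; simp [mk, hp, hb]
        · simp [mk, hp, ha s h1 h2, Finsupp.single_eq_of_ne h1, Finsupp.single_eq_of_ne h2]
    · rw [Finsupp.notMem_support_iff.1 fun h => hp (hl.1.2 h)]
      simp [mk, hp]
  · rintro ⟨M, hM0, _, _⟩
    apply Subtype.ext
    funext i j
    by_cases hp : (i, j) ∈ S
    · simp [mk, hp]
    · simp [mk, hp, hM0 i j hp]

/-- Cauchy's identity with the geometric series. -/
theorem cauchy_geom :
    (vandermonde fun i => (X (.inl i) : XY n)).det * (vandermonde fun i => (X (.inr i) : XY n)).det *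
      ∏ p : Fin n × Fin n, geom p = (Matrix.of fun i j => geom (i, j)).det := by
  classical
  rw [← cauchy_det_series]
  let R : Fin n → XY n := fun i => ∏ l, (1 - X (.inl i) * X (.inr l))
  have hR : (∏ i, R i) * ∏ p : Fin n × Fin n, geom p = 1 := by
    simp only [R]
    rw [Fintype.prod_prod_type, ← Finset.prod_mul_distrib]
    refine Finset.prod_eq_one fun i _ => ?_
    rw [← Finset.prod_mul_distrib]
    exact Finset.prod_eq_one fun j _ => one_sub_mul_geom (i, j)
  have hA : (Matrix.of fun i j => ∏ l ∈ Finset.univ.erase j, (1 - (X (.inl i) : XY n) * X (.inr l))) =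
      Matrix.of fun i j => R i * geom (i, j) := by
    ext i j : 2
    simp only [Matrix.of_apply, R]
    rw [← Finset.mul_prod_erase _ _ (Finset.mem_univ j), mul_right_comm, one_sub_mul_geom (i, j), one_mul]
  rw [hA, show (Matrix.of fun i j => R i * geom (i, j)).det =
    (∏ i, R i) * (Matrix.of fun i j => geom (i, j)).det from Matrix.det_mul_column R _,
    mul_right_comm, hR, one_mul]

/-- The exponent vector with parts `α` on the `x`'s and `β` on the `y`'s. -/
noncomputable def joinExp (α β : Fin n → ℕ) : Fin n ⊕ Fin n →₀ ℕ :=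
  Finsupp.equivFunOnFinite.symm (Sum.elim α β)

/-- Signed count of margin matrices (the Jacobi-Trudi orthogonality). -/
theorem signed_margins (l l' : Fin n → ℕ) (hl : StrictMono l) (hl' : StrictMono l') :
    ∑ κ : Equiv.Perm (Fin n), ∑ κ' : Equiv.Perm (Fin n),
      (if (∀ i, (κ i).val ≤ l i) ∧ (∀ i, (κ' i).val ≤ l' i) then
        (Equiv.Perm.sign κ : ℤ) * (Equiv.Perm.sign κ' : ℤ) *
          (Nat.card (MarginsOn (Finset.univ : Finset (Fin n × Fin n))
            (joinExp (fun i => l i - (κ i).val) (fun i => l' i - (κ' i).val))) : ℤ)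
       else 0) = if l = l' then 1 else 0 := by
  classical
  have hmono : ∀ (κ κ' : Equiv.Perm (Fin n)),
      (∏ i, (X (Sum.inl i) : XY n) ^ (κ i).val) * ∏ i, (X (Sum.inr i) : XY n) ^ (κ' i).val =
        monomial (joinExp (fun i => (κ i).val) (fun i => (κ' i).val)) 1 := by
    intro κ κ'
    simp only [X_pow_eq]
    rw [prod_monomial, prod_monomial, monomial_mul_monomial]
    congr 1
    · congr 1
      refine Finsupp.ext fun s => ?_
      cases s <;> simp [joinExp, Finsupp.single_apply]
    · simp
  have h := congrArg (coeff (joinExp l l')) (cauchy_geom (n := n))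
  rw [← det_transpose, det_apply', ← det_transpose (vandermonde fun i => (X (.inr i) : XY n)), det_apply',
    Finset.sum_mul_sum, Finset.sum_mul, map_sum, det_apply', map_sum] at h
  have hL : ∀ (κ : Equiv.Perm (Fin n)),
      coeff (joinExp l l') ((∑ κ' : Equiv.Perm (Fin n),
        (((Equiv.Perm.sign κ : ℤ) : XY n) * ∏ i, (vandermonde fun i => (X (.inl i) : XY n))ᵀ (κ i) i) *
          (((Equiv.Perm.sign κ' : ℤ) : XY n) * ∏ i, (vandermonde fun i => (X (.inr i) : XY n))ᵀ (κ' i) i)) *
        ∏ p : Fin n × Fin n, geom p) =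
      ∑ κ' : Equiv.Perm (Fin n),
      (if (∀ i, (κ i).val ≤ l i) ∧ (∀ i, (κ' i).val ≤ l' i) then
        (Equiv.Perm.sign κ : ℤ) * (Equiv.Perm.sign κ' : ℤ) *
          (Nat.card (MarginsOn (Finset.univ : Finset (Fin n × Fin n))
            (joinExp (fun i => l i - (κ i).val) (fun i => l' i - (κ' i).val))) : ℤ)
       else 0) := by
    intro κ
    rw [Finset.sum_mul, map_sum]
    refine Finset.sum_congr rfl fun κ' _ => ?_
    simp only [Matrix.transpose_apply, vandermonde_apply]
    rw [mul_mul_mul_comm, hmono, ← Int.cast_mul, ← map_intCast (C (σ := Fin n ⊕ Fin n) (R := ℤ)),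
      mul_assoc, coeff_C_mul, coeff_monomial_mul, one_mul]
    have hle : joinExp (fun i => (κ i).val) (fun i => (κ' i).val) ≤ joinExp l l' ↔
        (∀ i, (κ i).val ≤ l i) ∧ (∀ i, (κ' i).val ≤ l' i) := by
      constructor
      · intro hh
        exact ⟨fun i => by simpa [joinExp] using hh (Sum.inl i), fun i => by simpa [joinExp] using hh (Sum.inr i)⟩
      · rintro ⟨h1, h2⟩ (s | s) <;> simp [joinExp, h1, h2]
    simp only [hle]
    split_ifs with hc
    · rw [coeff_prod_geom, Int.cast_id]
      congr 4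
      refine Finsupp.ext fun s => ?_
      cases s <;> simp [joinExp]
    · rw [mul_zero]
  rw [Finset.sum_congr rfl fun κ _ => hL κ] at h
  rw [h]
  have hR : ∀ σ : Equiv.Perm (Fin n), coeff (joinExp l l')
      (((Equiv.Perm.sign σ : ℤ) : XY n) * ∏ i, (Matrix.of fun i j => geom (i, j)) (σ i) i) =
      if l ∘ σ = l' then (Equiv.Perm.sign σ : ℤ) else 0 := by
    intro σ
    rw [← map_intCast (C (σ := Fin n ⊕ Fin n) (R := ℤ)), coeff_C_mul]
    simp only [Matrix.of_apply]
    rw [← Finset.prod_image (f := geom) (g := fun i => (σ i, i)) fun a _ b _ e => congrArg Prod.snd e,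
      coeff_prod_geom, Int.cast_id]
    have hsup : ∀ M : MarginsOn (Finset.univ.image fun i => (σ i, i)) (joinExp l l'),
        ∀ i j, i ≠ σ j → M.1 i j = 0 := fun M i j hne => M.2.1 i j fun hm => by
          obtain ⟨k, -, hk⟩ := Finset.mem_image.1 hm
          simp only [Prod.mk.injEq] at hk
          exact hne (by rw [← hk.2]; exact hk.1.symm)
    have hrow : ∀ M : MarginsOn (Finset.univ.image fun i => (σ i, i)) (joinExp l l'),
        ∀ j, M.1 (σ j) j = l (σ j) ∧ M.1 (σ j) j = l' j := by
      intro M j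
      constructor
      · have := M.2.2.1 (σ j)
        rw [Finset.sum_eq_single j (fun b _ hb => hsup M _ _ (σ.injective.ne (Ne.symm hb))) (by simp)] at this
        simpa [joinExp] using this
      · have := M.2.2.2 j
        rw [Finset.sum_eq_single (σ j) (fun b _ hb => hsup M _ _ hb) (by simp)] at this
        simpa [joinExp] using this
    split_ifs with hc
    · have : Unique (MarginsOn (Finset.univ.image fun i => (σ i, i)) (joinExp l l')) :=
        { default := ⟨fun i j => if i = σ j then l' j else 0, fun i j hij => by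
            refine if_neg ?_; rintro rfl; exact hij (Finset.mem_image.2 ⟨j, Finset.mem_univ _, rfl⟩),
            fun i => by
              rw [Finset.sum_eq_single (σ⁻¹ i)]
              · simp [joinExp, ← hc]
              · intro b _ hb; refine if_neg ?_; rintro rfl; simp at hb
              · simp,
            fun j => by simp [joinExp]⟩
          uniq := fun M => Subtype.ext (funext fun i => funext fun j => by
            show M.1 i j = if i = σ j then l' j else 0
            split_ifs with h
            · subst h; exact (hrow M j).2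
            · exact hsup M i j h) }
      rw [Nat.card_unique, Nat.cast_one, mul_one]
    · have : IsEmpty (MarginsOn (Finset.univ.image fun i => (σ i, i)) (joinExp l l')) :=
        ⟨fun M => hc (funext fun j => ((hrow M j).1.symm.trans (hrow M j).2))⟩
      simp
  rw [Finset.sum_congr rfl fun σ _ => hR σ, Finset.sum_eq_single 1]
  · simp
  · intro σ _ hσ
    rw [if_neg]
    intro hc
    apply hσ
    have hls : StrictMono σ := fun a b hab => hl.lt_iff_lt.1 (by
      have := hl' hab
      rw [← hc] at this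
      exact this)
    have := Subsingleton.elim (hls.orderIsoOfSurjective σ σ.surjective) (OrderIso.refl (Fin n))
    exact Equiv.ext fun x => by simpa using DFunLike.congr_fun this x
  · simp

end Cfsg.Agent.H70
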