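import Cfsg.Agent.H70.UnipotentDegree
import Cfsg.Agent.H70.FlagOrbits
import Cfsg.Agent.H70.Cauchy
import Cfsg.Agent.H68.CharTools

set_option autoImplicit false
set_option linter.style.haveILetI false

/-! The unipotent class functions of `GL_n(q)` are distinct irreducible characters. -/

namespace Cfsg.Agent.H70

open Cfsg.Agent.H26
open scoped ComplexConjugate

universe u

variable {G : Type u} [Group G] [Fintype G]

/-- A difference of two characters with norm one and positive degree is irreducible. -/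
theorem isIrrCharacter_sub_of_norm_one {A B : G → ℂ} (hA : Cfsg.IsCharacter G A) (hB : Cfsg.IsCharacter G B)
    (h : Cfsg.classInner (A - B) (A - B) = 1) (h1 : ∃ r : ℝ, 0 < r ∧ (A - B) 1 = (r : ℂ)) :
    Cfsg.IsIrrCharacter G (A - B) := by
  classical
  obtain ⟨s, rfl⟩ := exists_multiset_of_isCharacter hA
  obtain ⟨t, rfl⟩ := exists_multiset_of_isCharacter hB
  set c : Cfsg.IrrCharacter G → ℤ := fun ψ => (s.count ψ : ℤ) - (t.count ψ : ℤ) with hc
  set U := s.toFinset ∪ t.toFinset with hU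
  have hexp : ∀ (r : Multiset (Cfsg.IrrCharacter G)), r.toFinset ⊆ U →
      (r.map fun χ : Cfsg.IrrCharacter G => χ.1).sum = ∑ ψ ∈ U, (r.count ψ : ℂ) • ψ.1 := by
    intro r hr
    rw [Finset.sum_multiset_map_count, ← Finset.sum_subset hr]
    · simp only [Nat.cast_smul_eq_nsmul]
    · intro ψ _ hψ
      rw [Multiset.count_eq_zero.2 (fun h => hψ (Multiset.mem_toFinset.2 h))]; simp
  have hχ : (s.map fun χ : Cfsg.IrrCharacter G => χ.1).sum - (t.map fun χ : Cfsg.IrrCharacter G => χ.1).sum =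
      ∑ ψ ∈ U, (c ψ : ℂ) • ψ.1 := by
    rw [hexp s Finset.subset_union_left, hexp t Finset.subset_union_right, ← Finset.sum_sub_distrib]
    exact Finset.sum_congr rfl fun ψ _ => by simp [hc, sub_smul]
  rw [hχ] at h h1 ⊢
  rw [classInner_sum_left] at h
  have hterm : ∀ ψ ∈ U, Cfsg.classInner ((c ψ : ℂ) • ψ.1) (∑ φ ∈ U, (c φ : ℂ) • φ.1) = ((c ψ ^ 2 : ℤ) : ℂ) := by
    intro ψ hψ
    rw [classInner_smul_left, classInner_sum_right]
    simp only [classInner_smul_right, classInner_irr, map_intCast, mul_ite, mul_one, mul_zero]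
    rw [Finset.sum_ite_eq, if_pos hψ]
    push_cast; ring
  rw [Finset.sum_congr rfl hterm, ← Int.cast_sum, ← Int.cast_one, Int.cast_inj] at h
  obtain ⟨ψ, hψU, hψne⟩ : ∃ ψ ∈ U, c ψ ≠ 0 := by
    by_contra hcon
    push Not at hcon
    rw [Finset.sum_eq_zero fun ψ hψ => by rw [hcon ψ hψ]; ring] at h
    exact zero_ne_one h
  have hsplit := Finset.add_sum_erase U (fun φ => c φ ^ 2) hψU
  rw [h] at hsplit
  have hψ1 : 1 ≤ c ψ ^ 2 := by
    have := sq_pos_of_ne_zero hψne
    omega
  have hrest0 : (∑ φ ∈ U.erase ψ, c φ ^ 2) = 0 := by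
    have := Finset.sum_nonneg (s := U.erase ψ) (f := fun φ => c φ ^ 2) fun φ _ => sq_nonneg _
    omega
  have hrest : ∀ φ ∈ U.erase ψ, c φ = 0 := fun φ hφ =>
    pow_eq_zero_iff two_ne_zero |>.1 ((Finset.sum_eq_zero_iff_of_nonneg fun φ _ => sq_nonneg _).1 hrest0 φ hφ)
  have hsum : ∑ φ ∈ U, (c φ : ℂ) • φ.1 = (c ψ : ℂ) • ψ.1 := by
    refine Finset.sum_eq_single ψ (fun φ hφ hne => ?_) fun h => absurd hψU h
    rw [hrest φ (Finset.mem_erase.2 ⟨hne, hφ⟩)]; simp
  rw [hsum] at h1 ⊢
  rcases sq_eq_one_iff.1 (show c ψ ^ 2 = 1 by omega) with hpos | hneg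
  · rw [hpos]; simpa using ψ.2
  · exfalso
    obtain ⟨r, hr, hr1⟩ := h1
    obtain ⟨m, hm⟩ := exists_nat_char_one (irr_isCharacter ψ)
    rw [hneg, Pi.smul_apply, hm, smul_eq_mul] at hr1
    have h2 := congrArg Complex.re hr1
    simp at h2
    have := Nat.cast_nonneg (α := ℝ) m
    linarith

variable {n : ℕ} {F : Type u} [Field F] [Fintype F]

theorem isCharacter_fixedPointCharacter (H : Subgroup G) : Cfsg.IsCharacter G (Cfsg.fixedPointCharacter H) := by
  rw [← Cfsg.Agent.H68.indFun_one_eq_fixedPointCharacter H]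
  have := Cfsg.Agent.H68.isCharacter_indFun_hom H (1 : H →* ℂˣ)
  simpa using this

/-- The unipotent class function is a difference of two characters. -/
theorem unipotent_eq_sub [DecidableEq F] (ν : Fin n → ℕ) :
    ∃ A B : GL (Fin n) F → ℂ, Cfsg.IsCharacter _ A ∧ Cfsg.IsCharacter _ B ∧
      Cfsg.unipotentCharacterGL n F ν = A - B := by
  classical
  let f : Equiv.Perm (Fin n) → GL (Fin n) F → ℂ := fun κ =>
    Cfsg.fixedPointCharacter (Cfsg.parabolicGL n F fun i => ν i + i.val - (κ i).val)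
  let S := Finset.univ.filter fun κ : Equiv.Perm (Fin n) => ∀ i : Fin n, (κ i).val ≤ ν i + i.val
  have hsum : ∀ s : Finset (Equiv.Perm (Fin n)), Cfsg.IsCharacter _ (∑ κ ∈ s, f κ) := by
    intro s
    induction s using Finset.induction with
    | empty => rw [Finset.sum_empty]; exact isCharacter_zero _
    | insert a s ha ih => rw [Finset.sum_insert ha]; exact isCharacter_add (isCharacter_fixedPointCharacter _) ih
  refine ⟨∑ κ ∈ S.filter (fun κ => Equiv.Perm.sign κ = 1), f κ,
    ∑ κ ∈ S.filter (fun κ => ¬ Equiv.Perm.sign κ = 1), f κ, hsum _, hsum _, ?_⟩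
  funext g
  simp only [Cfsg.unipotentCharacterGL, Pi.sub_apply, Finset.sum_apply]
  rw [← Finset.sum_filter, ← Finset.sum_filter_add_sum_filter_not S (fun κ => Equiv.Perm.sign κ = 1),
    sub_eq_add_neg, ← Finset.sum_neg_distrib]
  congr 1
  · refine Finset.sum_congr rfl fun κ hκ => ?_
    rw [(Finset.mem_filter.1 hκ).2]; simp [f]
  · refine Finset.sum_congr rfl fun κ hκ => ?_
    rcases Int.units_eq_one_or (Equiv.Perm.sign κ) with h | h
    · exact absurd h (Finset.mem_filter.1 hκ).2
    · rw [h]; simp [f]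

theorem conj_fixedPointCharacter {G' : Type*} [Group G'] (H : Subgroup G') (g : G') :
    conj (Cfsg.fixedPointCharacter H g) = Cfsg.fixedPointCharacter H g :=
  Complex.conj_natCast _

/-- The inner products of the unipotent class functions. -/
theorem classInner_unipotent [DecidableEq F] (ν ν' : Fin n → ℕ) (hmono : Monotone ν) (hsum : ∑ i, ν i = n)
    (hmono' : Monotone ν') (hsum' : ∑ i, ν' i = n) :
    Cfsg.classInner (Cfsg.unipotentCharacterGL n F ν) (Cfsg.unipotentCharacterGL n F ν') =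
      if (fun i => ν i + i.val) = (fun i => ν' i + i.val) then 1 else 0 := by
  classical
  have hl : ∀ ν : Fin n → ℕ, Monotone ν → StrictMono fun i : Fin n => ν i + i.val :=
    fun ν h a b hab => add_lt_add_of_le_of_lt (h hab.le) hab
  have key := congrArg (Int.cast : ℤ → ℂ) (signed_margins (fun i => ν i + i.val) (fun i => ν' i + i.val)
    (hl ν hmono) (hl ν' hmono'))
  simp only [Int.cast_sum, Int.cast_ite, Int.cast_mul, Int.cast_natCast, Int.cast_one, Int.cast_zero] at key
  rw [← key, Cfsg.classInner]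
  have hexp : ∀ g : GL (Fin n) F,
      Cfsg.unipotentCharacterGL n F ν g * conj (Cfsg.unipotentCharacterGL n F ν' g) =
      ∑ κ : Equiv.Perm (Fin n), ∑ κ' : Equiv.Perm (Fin n),
        if (∀ i : Fin n, (κ i).val ≤ ν i + i.val) ∧ (∀ i : Fin n, (κ' i).val ≤ ν' i + i.val) then
          ((Equiv.Perm.sign κ : ℤ) : ℂ) * ((Equiv.Perm.sign κ' : ℤ) : ℂ) *
            (Cfsg.fixedPointCharacter (Cfsg.parabolicGL n F fun i => ν i + i.val - (κ i).val) g *
              Cfsg.fixedPointCharacter (Cfsg.parabolicGL n F fun i => ν' i + i.val - (κ' i).val) g)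
        else 0 := by
    intro g
    simp only [Cfsg.unipotentCharacterGL]
    rw [map_sum, Finset.sum_mul_sum]
    refine Finset.sum_congr rfl fun κ _ => Finset.sum_congr rfl fun κ' _ => ?_
    by_cases h : ∀ i : Fin n, (κ i).val ≤ ν i + i.val
    · by_cases h' : ∀ i : Fin n, (κ' i).val ≤ ν' i + i.val
      · rw [if_pos h, if_pos h', if_pos ⟨h, h'⟩, map_mul, map_intCast, conj_fixedPointCharacter]
        ring
      · rw [if_neg h', if_neg (show ¬ ((∀ i : Fin n, (κ i).val ≤ ν i + i.val) ∧ (∀ i : Fin n, (κ' i).val ≤ ν' i + i.val)) from fun hh => h' hh.2), map_zero, mul_zero]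
    · rw [if_neg h, if_neg (show ¬ ((∀ i : Fin n, (κ i).val ≤ ν i + i.val) ∧ (∀ i : Fin n, (κ' i).val ≤ ν' i + i.val)) from fun hh => h hh.1), zero_mul]
  rw [Finset.sum_congr rfl fun g _ => hexp g, Finset.sum_comm, Finset.mul_sum]
  refine Finset.sum_congr rfl fun κ _ => ?_
  rw [Finset.sum_comm, Finset.mul_sum]
  refine Finset.sum_congr rfl fun κ' _ => ?_
  by_cases h : (∀ i : Fin n, (κ i).val ≤ ν i + i.val) ∧ (∀ i : Fin n, (κ' i).val ≤ ν' i + i.val)
  · simp only [if_pos h]
    rw [← Finset.mul_sum, mul_left_comm, sum_fixedPointCharacter_mul,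
      card_glOrbits _ _ (sum_shifted_sub hsum κ h.1) (sum_shifted_sub hsum' κ' h.2),
      card_youngOrbits _ _ (sum_shifted_sub hsum κ h.1) (sum_shifted_sub hsum' κ' h.2)]
    congr 2
    refine Nat.card_congr (Equiv.subtypeEquivRight fun M => ?_)
    simp [joinExp]
  · simp only [if_neg h, Finset.sum_const_zero, mul_zero]

/-- The unipotent class functions are irreducible characters. -/
theorem unipotent_isIrrCharacter (ν : Fin n → ℕ) (hmono : Monotone ν) (hsum : ∑ i, ν i = n) :
    Cfsg.IsIrrCharacter (GL (Fin n) F) (Cfsg.unipotentCharacterGL n F ν) := by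
  classical
  obtain ⟨A, B, hA, hB, e⟩ := unipotent_eq_sub (F := F) ν
  have h := classInner_unipotent (F := F) ν ν hmono hsum hmono hsum
  rw [if_pos rfl] at h
  have h1 := unipotent_degree_pos (F := F) ν hmono hsum
  rw [e] at h h1 ⊢
  exact isIrrCharacter_sub_of_norm_one hA hB h h1

/-- Different partitions give different characters. -/
theorem unipotent_injective (ν ν' : Fin n → ℕ) (hmono : Monotone ν) (hsum : ∑ i, ν i = n)
    (hmono' : Monotone ν') (hsum' : ∑ i, ν' i = n)
    (h : Cfsg.unipotentCharacterGL n F ν = Cfsg.unipotentCharacterGL n F ν') : ν = ν' := by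
  classical
  have h1 := classInner_unipotent (F := F) ν ν hmono hsum hmono hsum
  have h2 := classInner_unipotent (F := F) ν ν' hmono hsum hmono' hsum'
  rw [← h] at h2
  rw [h2, if_pos rfl] at h1
  by_contra hne
  rw [if_neg fun he => hne (funext fun i => add_right_cancel (congrFun he i))] at h1
  exact zero_ne_one h1

end Cfsg.Agent.H70
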