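import Mathlib
import Cfsg.Prelude.Def_LinearParabolics

set_option autoImplicit false

/-! The block labelling of a composition. -/

namespace Cfsg.Agent.H70

variable {n : ℕ}

/-- The inclusive prefix sum of a composition. -/
def prefixSum (μ : Fin n → ℕ) (j : Fin n) : ℕ :=
  ∑ k ∈ Finset.univ.filter (fun k : Fin n => k ≤ j), μ k

theorem prefixSum_mono (μ : Fin n → ℕ) : Monotone (prefixSum μ) := by
  intro a b h
  refine Finset.sum_le_sum_of_subset fun k hk => ?_
  simp only [Finset.mem_filter, Finset.mem_univ, true_and] at hk ⊢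
  exact hk.trans h

theorem compLabel_eq (μ : Fin n → ℕ) (i : Fin n) :
    Cfsg.compLabel μ i = (Finset.univ.filter fun j : Fin n => prefixSum μ j ≤ i.val).card := rfl

theorem compLabel_le_iff (μ : Fin n → ℕ) (i j : Fin n) :
    Cfsg.compLabel μ i ≤ j.val ↔ i.val < prefixSum μ j := by
  rw [compLabel_eq]
  constructor
  · intro h
    by_contra hc
    push Not at hc
    have hsub : Finset.Iic j ⊆ Finset.univ.filter fun k : Fin n => prefixSum μ k ≤ i.val := by
      intro k hk
      exact Finset.mem_filter.2 ⟨Finset.mem_univ _, (prefixSum_mono μ (Finset.mem_Iic.1 hk)).trans hc⟩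
    have := Finset.card_le_card hsub
    rw [Fin.card_Iic] at this
    omega
  · intro h
    have hsub : (Finset.univ.filter fun k : Fin n => prefixSum μ k ≤ i.val) ⊆ Finset.Iio j := by
      intro k hk
      rw [Finset.mem_Iio]
      by_contra hc
      push Not at hc
      have := prefixSum_mono μ hc
      have := (Finset.mem_filter.1 hk).2
      omega
    have := Finset.card_le_card hsub
    rwa [Fin.card_Iio] at this

theorem compLabel_mono (μ : Fin n → ℕ) : Monotone (Cfsg.compLabel μ) := by
  intro a b h
  rw [compLabel_eq, compLabel_eq]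
  refine Finset.card_le_card fun k hk => ?_
  simp only [Finset.mem_filter, Finset.mem_univ, true_and] at hk ⊢
  exact hk.trans h

theorem compLabel_lt {μ : Fin n → ℕ} (hμ : ∑ i, μ i = n) (i : Fin n) : Cfsg.compLabel μ i < n := by
  have hn : 0 < n := i.pos
  have h : prefixSum μ ⟨n - 1, by omega⟩ = n := by
    rw [prefixSum, Finset.filter_true_of_mem, hμ]
    intro k _
    rw [Fin.le_def]; simp; omega
  have := (compLabel_le_iff μ i ⟨n - 1, by omega⟩).2 (by rw [h]; exact i.isLt)
  simp at this
  omega

/-- The block labelling as a map into `Fin n`. -/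
def blockLabel (μ : Fin n → ℕ) (hμ : ∑ i, μ i = n) (i : Fin n) : Fin n :=
  ⟨Cfsg.compLabel μ i, compLabel_lt hμ i⟩

theorem blockLabel_mono (μ : Fin n → ℕ) (hμ : ∑ i, μ i = n) : Monotone (blockLabel μ hμ) :=
  fun _ _ h => compLabel_mono μ h

theorem card_blockLabel_le (μ : Fin n → ℕ) (hμ : ∑ i, μ i = n) (j : Fin n) :
    (Finset.univ.filter fun i => blockLabel μ hμ i ≤ j).card = prefixSum μ j := by
  have hle : prefixSum μ j ≤ n :=
    (Finset.sum_le_sum_of_subset (Finset.filter_subset _ _)).trans hμ.le
  have e : (Finset.univ.filter fun i => blockLabel μ hμ i ≤ j) =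
      (Finset.univ.filter fun i : Fin n => i.val < prefixSum μ j) := by
    refine Finset.filter_congr fun i _ => ?_
    exact compLabel_le_iff μ i j
  rw [e, Fin.card_filter_val_lt, min_eq_right hle]

/-- Two functions on `Fin n` with the same sums over all initial segments agree. -/
theorem eq_of_sum_le_eq {M : Type*} [AddCancelCommMonoid M] (f g : Fin n → M)
    (h : ∀ j : Fin n, ∑ k ∈ Finset.univ.filter (fun k : Fin n => k ≤ j), f k =
      ∑ k ∈ Finset.univ.filter (fun k : Fin n => k ≤ j), g k) : f = g := by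
  funext j
  induction hj : j.val using Nat.strong_induction_on generalizing j with
  | _ v ih =>
    subst hj
    have := h j
    have hj' : j ∈ Finset.univ.filter (fun k : Fin n => k ≤ j) :=
      Finset.mem_filter.2 ⟨Finset.mem_univ j, le_rfl⟩
    rw [← Finset.add_sum_erase _ f hj', ← Finset.add_sum_erase _ g hj',
      Finset.sum_congr rfl fun k hk => ?_] at this
    · exact add_right_cancel this
    · obtain ⟨hne, hk⟩ := Finset.mem_erase.1 hk
      exact ih k.val (lt_of_le_of_ne (Finset.mem_filter.1 hk).2 (fun e => hne (Fin.ext e))) k rfl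

/-- The block with label `j` has `μ j` elements. -/
theorem card_blockLabel_eq (μ : Fin n → ℕ) (hμ : ∑ i, μ i = n) (j : Fin n) :
    (Finset.univ.filter fun i => blockLabel μ hμ i = j).card = μ j := by
  refine congrFun (eq_of_sum_le_eq (fun j => (Finset.univ.filter fun i => blockLabel μ hμ i = j).card) μ fun j => ?_) j
  rw [show ∑ k ∈ Finset.univ.filter (fun k : Fin n => k ≤ j), μ k = prefixSum μ j from rfl,
    ← card_blockLabel_le μ hμ j,
    Finset.card_eq_sum_card_fiberwise (f := blockLabel μ hμ)
      (t := Finset.univ.filter fun k : Fin n => k ≤ j)]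
  · refine Finset.sum_congr rfl fun k hk => congrArg Finset.card ?_
    rw [Finset.filter_filter]
    refine Finset.filter_congr fun i _ => ⟨fun e => ⟨?_, e⟩, fun e => e.2⟩
    rw [e]; exact (Finset.mem_filter.1 hk).2
  · intro i hi
    simp only [Finset.coe_filter, Finset.mem_univ, true_and, Set.mem_setOf_eq] at hi ⊢
    exact hi

theorem mem_parabolicGL_iff {F : Type*} [Field F] (μ : Fin n → ℕ) (hμ : ∑ i, μ i = n) (g : GL (Fin n) F) :
    g ∈ Cfsg.parabolicGL n F μ ↔ (g : Matrix (Fin n) (Fin n) F).BlockTriangular (blockLabel μ hμ) :=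
  Iff.rfl

theorem mem_youngSubgroup_iff (μ : Fin n → ℕ) (hμ : ∑ i, μ i = n) (σ : Equiv.Perm (Fin n)) :
    σ ∈ Cfsg.youngSubgroup μ ↔ ∀ i, blockLabel μ hμ (σ i) = blockLabel μ hμ i := by
  simp only [blockLabel, Fin.ext_iff]
  exact Iff.rfl

end Cfsg.Agent.H70
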