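import Cfsg.Agent.H70.CompLabel

set_option autoImplicit false
set_option linter.style.haveILetI false

/-! The index of a parabolic subgroup of `GL_n(q)`. -/

namespace Cfsg.Agent.H70

open Matrix

variable {n : ℕ} {F : Type*} [Field F]

/-- The `q`-integer `1 + q + ⋯ + q^(a-1)`. -/
def qInt (q a : ℕ) : ℕ := ∑ l ∈ Finset.range a, q ^ l

/-- The `q`-factorial. -/
def qFact (q a : ℕ) : ℕ := ∏ j ∈ Finset.range a, qInt q (j + 1)

theorem qFact_pos (q a : ℕ) : 0 < qFact q a := by
  refine Finset.prod_pos fun j _ => ?_
  exact lt_of_lt_of_le (by norm_num) (Finset.single_le_sum (f := fun l => q ^ l) (fun _ _ => Nat.zero_le _)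
    (Finset.mem_range.2 (Nat.succ_pos j)))

/-- The order of `GL_k(q)` in terms of the `q`-factorial. -/
theorem card_GL_eq_qFact [Fintype F] (k : ℕ) :
    Nat.card (GL (Fin k) F) =
      Fintype.card F ^ k.choose 2 * (Fintype.card F - 1) ^ k * qFact (Fintype.card F) k := by
  rw [Matrix.card_GL_field, Fin.prod_univ_eq_prod_range (fun i => Fintype.card F ^ k - Fintype.card F ^ i)]
  set q := Fintype.card F with hq
  have hq1 : 1 ≤ q := Fintype.card_pos
  have h1 : ∀ i ∈ Finset.range k, q ^ k - q ^ i = q ^ i * ((q - 1) * qInt q (k - 1 - i + 1)) := by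
    intro i hi
    have hik := Finset.mem_range.1 hi
    have hg : (q - 1) * qInt q (k - 1 - i + 1) = q ^ (k - i) - 1 := by
      rw [show k - 1 - i + 1 = k - i by omega]
      have h3 := geom_sum_mul_add (q - 1) (k - i)
      rw [Nat.sub_add_cancel hq1] at h3
      rw [qInt, mul_comm]
      omega
    rw [hg, Nat.mul_sub, ← pow_add, mul_one, show i + (k - i) = k by omega]
  rw [Finset.prod_congr rfl h1, Finset.prod_mul_distrib, Finset.prod_mul_distrib, Finset.prod_const,
    Finset.card_range, Finset.prod_pow_eq_pow_sum, Finset.sum_range_id, ← Nat.choose_two_right,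
    Finset.prod_range_reflect (fun j => qInt q (j + 1)), mul_assoc]
  rfl

/-- Invertible block triangular matrices are diagonal blocks plus free entries above them. -/
theorem card_blockTriangular_units [Fintype F] (a : Fin n → Fin n) :
    Nat.card {g : GL (Fin n) F // (g : Matrix (Fin n) (Fin n) F).BlockTriangular a} =
      (∏ i : Fin n, Nat.card (GL (Fin (Finset.univ.filter fun x => a x = i).card) F)) *
        Fintype.card F ^ (Finset.univ.filter fun z : Fin n × Fin n => a z.1 < a z.2).card := by
  classical
  let W := {z : Fin n × Fin n // a z.1 < a z.2}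
  let D := fun i : Fin n => {x : Fin n // a x = i}
  -- as a type of matrices
  let e1 : {g : GL (Fin n) F // (g : Matrix (Fin n) (Fin n) F).BlockTriangular a} ≃
      {M : Matrix (Fin n) (Fin n) F // M.BlockTriangular a ∧ IsUnit M.det} :=
    { toFun := fun g => ⟨g.1, g.2, (Matrix.isUnit_iff_isUnit_det _).1 g.1.isUnit⟩
      invFun := fun M => ⟨((Matrix.isUnit_iff_isUnit_det _).2 M.2.2).unit, M.2.1⟩
      left_inv := fun g => Subtype.ext (Units.ext rfl)
      right_inv := fun M => Subtype.ext rfl }
  have hdet : ∀ M : Matrix (Fin n) (Fin n) F, M.BlockTriangular a →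
      (IsUnit M.det ↔ ∀ i, IsUnit (M.toSquareBlock a i).det) := by
    intro M hM
    rw [hM.det_fintype]
    constructor
    · intro h i; exact isUnit_of_dvd_unit (Finset.dvd_prod_of_mem (fun k => (M.toSquareBlock a k).det) (Finset.mem_univ i)) h
    · intro h; exact IsUnit.prod_iff.2 fun i _ => h i
  let mk : (∀ i, {B : Matrix (D i) (D i) F // IsUnit B.det}) × (W → F) → Matrix (Fin n) (Fin n) F :=
    fun B => Matrix.of fun x y =>
      if h : a x = a y then (B.1 (a y)).1 ⟨x, h⟩ ⟨y, rfl⟩
      else if h' : a x < a y then B.2 ⟨(x, y), h'⟩ else 0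
  have hblock : ∀ B i (x y : D i), mk B x.1 y.1 = (B.1 i).1 x y := by
    intro B i x y
    obtain ⟨x, hx⟩ := x
    obtain ⟨y, hy⟩ := y
    subst hy
    simp [mk, hx]
  have htri : ∀ B, (mk B).BlockTriangular a := by
    intro B x y h
    simp [mk, h.ne', h.not_gt]
  let e2 : {M : Matrix (Fin n) (Fin n) F // M.BlockTriangular a ∧ IsUnit M.det} ≃
      (∀ i, {B : Matrix (D i) (D i) F // IsUnit B.det}) × (W → F) :=
    { toFun := fun M => (fun i => ⟨M.1.toSquareBlock a i, (hdet M.1 M.2.1).1 M.2.2 i⟩,
        fun z => M.1 z.1.1 z.1.2)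
      invFun := fun B => ⟨mk B, htri B, (hdet _ (htri B)).2 fun i => by
        have : (mk B).toSquareBlock a i = (B.1 i).1 := by
          ext x y; exact hblock B i x y
        rw [this]; exact (B.1 i).2⟩
      left_inv := fun M => by
        apply Subtype.ext
        ext x y
        by_cases h : a x = a y
        · simp [mk, h, Matrix.toSquareBlock_def]
        · by_cases h' : a x < a y
          · simp [mk, h, h']
          · have : a y < a x := lt_of_le_of_ne (not_lt.1 h') (Ne.symm h)
            simp [mk, h, h', M.2.1 this]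
      right_inv := fun B => by
        refine Prod.ext ?_ ?_
        · funext i
          apply Subtype.ext
          ext x y
          exact hblock B i x y
        · funext z
          simp [mk, z.2, ne_of_lt z.2] }
  rw [Nat.card_congr (e1.trans e2), Nat.card_prod, Nat.card_pi, Nat.card_fun]
  congr 1
  · refine Finset.prod_congr rfl fun i _ => ?_
    have hc : Fintype.card (D i) = (Finset.univ.filter fun x => a x = i).card := Fintype.card_subtype _
    let e := (Fintype.equivFin (D i)).trans (finCongr hc)
    refine Nat.card_congr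
      { toFun := fun B => ((Matrix.isUnit_iff_isUnit_det _).2
            (show IsUnit ((Matrix.reindex e e) B.1).det by rw [Matrix.det_reindex_self]; exact B.2)).unit
        invFun := fun g => ⟨(Matrix.reindex e.symm e.symm) g.1, by
          rw [Matrix.det_reindex_self]; exact (Matrix.isUnit_iff_isUnit_det _).1 g.isUnit⟩
        left_inv := fun B => Subtype.ext (by ext x y; simp)
        right_inv := fun g => Units.ext (by ext x y; simp) }
  · rw [Nat.card_eq_fintype_card, Nat.card_eq_fintype_card]
    congr 1
    exact Fintype.card_subtype _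

/-- The order of a parabolic subgroup. -/
theorem card_parabolicGL [Fintype F] (μ : Fin n → ℕ) (hμ : ∑ i, μ i = n) :
    Nat.card (Cfsg.parabolicGL n F μ) =
      Fintype.card F ^ n.choose 2 * (Fintype.card F - 1) ^ n * ∏ i, qFact (Fintype.card F) (μ i) := by
  classical
  set q := Fintype.card F
  set a := blockLabel μ hμ with ha
  have h := card_blockTriangular_units (F := F) a
  have e : Nat.card (Cfsg.parabolicGL n F μ) =
      Nat.card {g : GL (Fin n) F // (g : Matrix (Fin n) (Fin n) F).BlockTriangular a} :=
    Nat.card_congr (Equiv.subtypeEquivRight fun g => mem_parabolicGL_iff μ hμ g)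
  rw [e, h]
  simp only [ha, card_blockLabel_eq, card_GL_eq_qFact, Finset.prod_mul_distrib, Finset.prod_pow_eq_pow_sum, hμ]
  rw [← ha]
  set N := (Finset.univ.filter fun z : Fin n × Fin n => a z.1 < a z.2).card with hN
  have hN' : (∑ i, (μ i).choose 2) + N = n.choose 2 := by
    have hswap : (Finset.univ.filter fun z : Fin n × Fin n => a z.2 < a z.1).card = N := by
      rw [hN]
      exact Finset.card_equiv (Equiv.prodComm _ _) fun z => by simp
    have heq : (Finset.univ.filter fun z : Fin n × Fin n => a z.1 = a z.2).card = ∑ i, μ i * μ i := by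
      rw [Finset.card_eq_sum_card_fiberwise (f := fun z : Fin n × Fin n => a z.1) (t := Finset.univ)
        (fun _ _ => Finset.mem_univ _)]
      refine Finset.sum_congr rfl fun i _ => ?_
      have : (Finset.univ.filter fun z : Fin n × Fin n => a z.1 = a z.2).filter (fun z => a z.1 = i) =
          (Finset.univ.filter fun x => a x = i) ×ˢ (Finset.univ.filter fun x => a x = i) := by
        ext ⟨x, y⟩
        simp only [Finset.mem_filter, Finset.mem_univ, true_and, Finset.mem_product]
        constructor
        · rintro ⟨h1, h2⟩; exact ⟨h2, h1 ▸ h2⟩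
        · rintro ⟨h1, h2⟩; exact ⟨h1.trans h2.symm, h1⟩
      rw [this, Finset.card_product, ha, card_blockLabel_eq]
    have htot : (n : ℕ) * n = N + ((∑ i, μ i * μ i) + N) := by
      have h3 : ∀ z : Fin n × Fin n, (1 : ℕ) = (if a z.1 < a z.2 then 1 else 0) +
          ((if a z.1 = a z.2 then 1 else 0) + (if a z.2 < a z.1 then 1 else 0)) := by
        intro z
        rcases lt_trichotomy (a z.1) (a z.2) with h | h | h
        · simp [h, h.ne, h.not_gt]
        · simp [h]
        · simp [h, h.ne', h.not_gt]
      calc n * n = ∑ _z : Fin n × Fin n, 1 := by simp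
        _ = _ := by
          rw [Finset.sum_congr rfl fun z _ => h3 z, Finset.sum_add_distrib, Finset.sum_add_distrib,
            ← Finset.card_filter, ← Finset.card_filter, ← Finset.card_filter, hswap, heq, ← hN]
    have hch : ∀ k : ℕ, k * k = 2 * k.choose 2 + k := by
      intro k
      induction k with
      | zero => simp
      | succ k ih => rw [Nat.choose_succ_succ, Nat.choose_one_right]; nlinarith
    simp only [hch, Finset.sum_add_distrib, ← Finset.mul_sum, hμ] at htot
    omega
  rw [← hN', pow_add]
  ring

/-- `|GL_n : P_μ| ∏ [μ_i]! = [n]!`. -/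
theorem parabolic_index [Fintype F] (μ : Fin n → ℕ) (hμ : ∑ i, μ i = n) :
    Nat.card (GL (Fin n) F ⧸ Cfsg.parabolicGL n F μ) * ∏ i, qFact (Fintype.card F) (μ i) =
      qFact (Fintype.card F) n := by
  have h := Subgroup.card_eq_card_quotient_mul_card_subgroup (Cfsg.parabolicGL n F μ)
  rw [card_parabolicGL μ hμ, card_GL_eq_qFact] at h
  have hpos : 0 < Fintype.card F ^ n.choose 2 * (Fintype.card F - 1) ^ n := by
    have : 1 < Fintype.card F := Fintype.one_lt_card
    exact Nat.mul_pos (pow_pos (by omega) _) (pow_pos (by omega) _)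
  refine Nat.eq_of_mul_eq_mul_left hpos ?_
  rw [h]; ring

end Cfsg.Agent.H70
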