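import Cfsg.Agent.H92.SL2Hom

/-!
# The rank one Steinberg presentation of `SL₂` over a finite field
-/

set_option autoImplicit false

namespace Cfsg.Agent.H70

open Cfsg.Agent.H92 Matrix
open scoped MatrixGroups

variable (K : Type*) [Field K]

/-- The relators of the rank one presentation. -/
def sl2Relators : Set (FreeGroup (Bool × K)) :=
  {g | ∃ (b : Bool) (t u : K), g = FreeGroup.of (b, t) * FreeGroup.of (b, u) * (FreeGroup.of (b, t + u))⁻¹} ∪
  {g | ∃ (b : Bool) (t u : K), t ≠ 0 ∧
    g = (FreeGroup.of (b, t) * FreeGroup.of (!b, -t⁻¹) * FreeGroup.of (b, t)) * FreeGroup.of (b, u) *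
      (FreeGroup.of (b, t) * FreeGroup.of (!b, -t⁻¹) * FreeGroup.of (b, t))⁻¹ * (FreeGroup.of (!b, -(t⁻¹ ^ 2 * u)))⁻¹}

/-- The images of the symbols. -/
def sl2Symb (p : Bool × K) : SL(2, K) := if p.1 then sx p.2 else sy (-p.2)

theorem sl2Symb_rels : ∀ g ∈ sl2Relators K, FreeGroup.lift (sl2Symb K) g = 1 := by
  rintro g (⟨b, t, u, rfl⟩ | ⟨b, t, u, ht, rfl⟩)
  · cases b
    · simp only [map_mul, map_inv, FreeGroup.lift_apply_of, sl2Symb, Bool.false_eq_true, if_false]
      rw [mul_inv_eq_one, ← sy_add, neg_add]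
    · simp [sl2Symb, sx_add, mul_inv_cancel]
  · have key : ∀ A B C : SL(2, K), A * B = C * A → A * B * A⁻¹ * C⁻¹ = 1 := fun A B C h => by
      rw [h]; group
    cases b
    · simp only [Bool.not_false, map_mul, map_inv, FreeGroup.lift_apply_of, sl2Symb, if_true, Bool.false_eq_true,
        if_false]
      refine key _ _ _ ?_
      apply sl2_ext <;> simp [sl2_mul_apply] <;> field_simp <;> first | ring1 | simp | tauto
    · simp only [Bool.not_true, map_mul, map_inv, FreeGroup.lift_apply_of, sl2Symb, if_true, Bool.false_eq_true,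
        if_false]
      refine key _ _ _ ?_
      apply sl2_ext <;> simp [sl2_mul_apply] <;> field_simp <;> first | ring1 | simp | tauto

/-- The presentation holds. -/
theorem sl2_presentation [Finite K] : ∃ e : PresentedGroup (sl2Relators K) ≃* SL(2, K),
    (∀ t : K, e (PresentedGroup.of (true, t)) = sx t) ∧ ∀ t : K, e (PresentedGroup.of (false, t)) = sy (-t) := by
  let X : K → PresentedGroup (sl2Relators K) := fun t => PresentedGroup.of (true, t)
  let Z : K → PresentedGroup (sl2Relators K) := fun t => PresentedGroup.of (false, t)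
  let Y : K → PresentedGroup (sl2Relators K) := fun t => Z (-t)
  have hadd : ∀ b (t u : K), (PresentedGroup.of (b, t + u) : PresentedGroup (sl2Relators K)) =
      PresentedGroup.of (b, t) * PresentedGroup.of (b, u) := by
    intro b t u
    have h := PresentedGroup.one_of_mem (rels := sl2Relators K) (Or.inl ⟨b, t, u, rfl⟩)
    rw [map_mul, map_mul, map_inv, mul_inv_eq_one] at h
    exact h.symm
  have hconj : ∀ b (t u : K), t ≠ 0 →
      (PresentedGroup.of (b, t) * PresentedGroup.of (!b, -t⁻¹) * PresentedGroup.of (b, t)) * PresentedGroup.of (b, u) *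
        (PresentedGroup.of (b, t) * PresentedGroup.of (!b, -t⁻¹) * PresentedGroup.of (b, t))⁻¹ =
      (PresentedGroup.of (!b, -(t⁻¹ ^ 2 * u)) : PresentedGroup (sl2Relators K)) := by
    intro b t u ht
    have h := PresentedGroup.one_of_mem (rels := sl2Relators K) (Or.inr ⟨b, t, u, ht, rfl⟩)
    simp only [map_mul, map_inv] at h
    rw [mul_inv_eq_one] at h
    exact h
  have hw : ∀ t : K, t ≠ 0 → X t * Z (-t⁻¹) * X t = Z (-t⁻¹) * X t * Z (-t⁻¹) := by
    intro t ht
    have h := hconj true t t ht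
    rw [show t⁻¹ ^ 2 * t = t⁻¹ by field_simp] at h
    change X t * Z (-t⁻¹) * X t * X t * (X t * Z (-t⁻¹) * X t)⁻¹ = Z (-t⁻¹) at h
    rw [mul_inv_eq_iff_eq_mul] at h
    refine mul_right_cancel (b := X t) (h.trans ?_)
    group
  have R : SL2Rels X Y := by
    refine ⟨fun s t => hadd true s t, fun s t => ?_, fun t ht => ?_, fun t ht u => ?_, fun t ht u => ?_⟩
    · show Z (-(s + t)) = _
      rw [neg_add]; exact hadd false _ _
    · exact (hw t ht).symm
    · show X t * Z (-t⁻¹) * X t * X u * (X t * Z (-t⁻¹) * X t)⁻¹ = Z (-(u / t ^ 2))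
      rw [show u / t ^ 2 = t⁻¹ ^ 2 * u by field_simp]
      exact hconj true t u ht
    · show X t * Z (-t⁻¹) * X t * Z (-u) * (X t * Z (-t⁻¹) * X t)⁻¹ = X (u * t ^ 2)
      have h := hconj false (-t⁻¹) (-u) (neg_ne_zero.2 (inv_ne_zero ht))
      rw [show -(-t⁻¹)⁻¹ = t by simp [inv_neg], show -((-t⁻¹)⁻¹ ^ 2 * -u) = u * t ^ 2 by simp [inv_neg, mul_comm]] at h
      rw [hw t ht]
      exact h
  let φ : PresentedGroup (sl2Relators K) →* SL(2, K) := PresentedGroup.toGroup (sl2Symb_rels K)
  have hφ : ∀ p, φ (PresentedGroup.of p) = sl2Symb K p := fun p => PresentedGroup.toGroup.of (h := sl2Symb_rels K)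
  have h1 : R.hom.comp φ = MonoidHom.id _ := by
    refine PresentedGroup.ext fun p => ?_
    rcases p with ⟨b, t⟩
    cases b
    · rw [MonoidHom.comp_apply, hφ, MonoidHom.id_apply]
      show R.hom (sy (-t)) = _
      rw [R.hom_sy]
      show Z (- -t) = _
      rw [neg_neg]
    · rw [MonoidHom.comp_apply, hφ, MonoidHom.id_apply]
      exact R.hom_sx t
  have h2 : φ.comp R.hom = MonoidHom.id _ := by
    refine MonoidHom.eq_of_eqOn_dense sl2_closure_sx_sy ?_
    rintro _ (⟨t, rfl⟩ | ⟨t, rfl⟩)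
    · show φ (R.hom (sx t)) = sx t
      rw [R.hom_sx]; exact hφ _
    · show φ (R.hom (sy t)) = sy t
      rw [R.hom_sy]
      show φ (PresentedGroup.of (false, -t)) = _
      rw [hφ]
      show sy (- -t) = _
      rw [neg_neg]
  exact ⟨MonoidHom.toMulEquiv φ R.hom h1 h2, fun t => hφ _, fun t => hφ _⟩

end Cfsg.Agent.H70
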