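import Mathlib
import Cfsg.Agent.H1.Generation

set_option autoImplicit false
set_option linter.style.haveILetI false

/-! Small facts about `SL_3(4)` and `PSL_3(4)`. -/

namespace Cfsg.Agent.H70

open Matrix
open scoped commutatorElement Pointwise

variable {F : Type*} [Field F] [Fintype F]

theorem center_sl34 (hF : Fintype.card F = 4) :
    Nat.card ↥(Subgroup.center (SpecialLinearGroup (Fin 3) F)) = 3 := by
  classical
  rw [Nat.card_congr (Matrix.SpecialLinearGroup.center_equiv_rootsOfUnity' (0 : Fin 3)).toEquiv]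
  have h : rootsOfUnity (Fintype.card (Fin 3)) F = ⊤ := by
    refine eq_top_iff.2 fun u _ => ?_
    rw [mem_rootsOfUnity, Fintype.card_fin]
    have := pow_card_eq_one (x := u)
    rwa [Fintype.card_units, hF] at this
  rw [h, Subgroup.card_top, Nat.card_units, Nat.card_eq_fintype_card, hF]

theorem sl34_nonsplit (hF : Fintype.card F = 4) :
    ¬ ∃ K : Subgroup (SpecialLinearGroup (Fin 3) F),
      Subgroup.IsComplement' (Subgroup.center (SpecialLinearGroup (Fin 3) F)) K := by
  rintro ⟨K, hK⟩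
  have hperf := Cfsg.Agent.H1.commutator_SL_eq_top (ι := Fin 3) (F := F) (Or.inl (by simp))
  have hle : commutator (SpecialLinearGroup (Fin 3) F) ≤ K := by
    rw [commutator_eq_closure, Subgroup.closure_le]
    rintro _ ⟨a, b, rfl⟩
    obtain ⟨⟨z, k⟩, rfl, -⟩ := hK.existsUnique a
    obtain ⟨⟨z', k'⟩, rfl, -⟩ := hK.existsUnique b
    have hz : ∀ g, g * (z : SpecialLinearGroup (Fin 3) F) = z * g := Subgroup.mem_center_iff.1 z.2
    have hz' : ∀ g, g * (z' : SpecialLinearGroup (Fin 3) F) = z' * g := Subgroup.mem_center_iff.1 z'.2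
    have e : ⁅(z : SpecialLinearGroup (Fin 3) F) * k, (z' : SpecialLinearGroup (Fin 3) F) * k'⁆ =
        ⁅(k : SpecialLinearGroup (Fin 3) F), (k' : SpecialLinearGroup (Fin 3) F)⁆ := by
      rw [commutatorElement_def, commutatorElement_def, _root_.mul_inv_rev, _root_.mul_inv_rev]
      calc (z : SpecialLinearGroup (Fin 3) F) * k * (z' * k') * (k.1⁻¹ * z.1⁻¹) * (k'.1⁻¹ * z'.1⁻¹)
          = z * (k * z') * k' * k.1⁻¹ * (z.1⁻¹ * k'.1⁻¹) * z'.1⁻¹ := by simp only [mul_assoc]
        _ = z * (z' * k) * k' * k.1⁻¹ * (k'.1⁻¹ * z.1⁻¹) * z'.1⁻¹ := by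
            rw [hz' k, show z.1⁻¹ * k'.1⁻¹ = k'.1⁻¹ * z.1⁻¹ by
              rw [← _root_.mul_inv_rev, ← _root_.mul_inv_rev, hz k']]
        _ = (z * z' * (k * k' * k.1⁻¹ * k'.1⁻¹)) * (z.1⁻¹ * z'.1⁻¹) := by simp only [mul_assoc]
        _ = (k * k' * k.1⁻¹ * k'.1⁻¹) * (z * z') * (z.1⁻¹ * z'.1⁻¹) := by
            rw [Subgroup.mem_center_iff.1 (Subgroup.mul_mem _ z.2 z'.2)]
        _ = k * k' * k.1⁻¹ * k'.1⁻¹ := by
            rw [show z.1⁻¹ * z'.1⁻¹ = (z'.1 * z.1)⁻¹ from (_root_.mul_inv_rev _ _).symm, ← hz z',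
              mul_inv_cancel_right]
    rw [e]
    exact K.mul_mem (K.mul_mem (K.mul_mem k.2 k'.2) (K.inv_mem k.2)) (K.inv_mem k'.2)
  rw [hperf, top_le_iff] at hle
  subst hle
  rw [Subgroup.isComplement'_top_right] at hK
  have := center_sl34 (F := F) hF
  rw [hK, Subgroup.card_bot] at this
  omega

/-- An element with cube scalar in `SL_3(4)` has cube one. -/
theorem cube_eq_one (hF : Fintype.card F = 4) (g : SpecialLinearGroup (Fin 3) F)
    (hg : g ^ 3 ∈ Subgroup.center (SpecialLinearGroup (Fin 3) F)) : g ^ 3 = 1 := by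
  classical
  obtain ⟨c, -, hc⟩ := Matrix.SpecialLinearGroup.mem_center_iff.1 hg
  by_contra hne
  have hc1 : c ≠ 1 := by
    rintro rfl
    exact hne (Subtype.ext (by rw [← hc]; simp))
  set M : Matrix (Fin 3) (Fin 3) F := (g : Matrix (Fin 3) (Fin 3) F) with hM
  have hM3 : M ^ 3 = scalar (Fin 3) c := by rw [hc, hM, Matrix.SpecialLinearGroup.coe_pow]
  set P : Polynomial F := Polynomial.X ^ 3 - Polynomial.C c with hP
  have hPdeg : P.natDegree = 3 := Polynomial.natDegree_X_pow_sub_C
  have hc0 : c ≠ 0 := by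
    rintro rfl
    have := congrArg Matrix.det hM3
    rw [det_pow, hM, g.2] at this
    simp at this
  have hirr : Irreducible P := by
    rw [Polynomial.irreducible_iff_roots_eq_zero_of_degree_le_three (by omega) (by omega)]
    refine Multiset.eq_zero_of_forall_notMem fun x hx => ?_
    rw [Polynomial.mem_roots (Polynomial.X_pow_sub_C_ne_zero (by norm_num) c), Polynomial.IsRoot,
      Polynomial.eval_sub, Polynomial.eval_pow, Polynomial.eval_X, Polynomial.eval_C, sub_eq_zero] at hx
    have hx0 : x ≠ 0 := by rintro rfl; exact hc0 (by simpa using hx.symm)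
    have := FiniteField.pow_card_sub_one_eq_one x hx0
    rw [hF] at this
    exact hc1 (hx.symm.trans this)
  have hann : Polynomial.aeval M P = 0 := by
    rw [hP, map_sub, map_pow, Polynomial.aeval_X, Polynomial.aeval_C, hM3, sub_eq_zero]
    rfl
  have hmin : minpoly F M = P :=
    (minpoly.eq_of_irreducible_of_monic hirr hann (Polynomial.monic_X_pow_sub_C c (by norm_num))).symm
  have hchar : M.charpoly = P := by
    refine (Polynomial.eq_of_monic_of_dvd_of_natDegree_le ?_ M.charpoly_monic ?_ ?_)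
    · exact Polynomial.monic_X_pow_sub_C c (by norm_num)
    · rw [← hmin]; exact Matrix.minpoly_dvd_charpoly M
    · rw [Matrix.charpoly_natDegree_eq_dim, hPdeg]; simp
  have hdet := Matrix.det_eq_sign_charpoly_coeff M
  rw [hM, g.2, ← hM, hchar, hP, Polynomial.coeff_sub, Polynomial.coeff_X_pow, Polynomial.coeff_C] at hdet
  simp only [Fintype.card_fin] at hdet
  norm_num at hdet
  exact hc1 hdet.symm

/-- A non-scalar element of order three in `SL_3(4)` is conjugate to `diag(1, w, w²)`. -/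
theorem conj_diag_of_cube_eq_one (hF : Fintype.card F = 4) (w : F) (hw : w ≠ 0) (hw1 : w ≠ 1)
    (D : SpecialLinearGroup (Fin 3) F) (hD : (D : Matrix (Fin 3) (Fin 3) F) = diagonal ![1, w, w ^ 2])
    (g : SpecialLinearGroup (Fin 3) F) (hg : g ^ 3 = 1)
    (hns : g ∉ Subgroup.center (SpecialLinearGroup (Fin 3) F)) :
    ∃ h : SpecialLinearGroup (Fin 3) F, g = h * D * h⁻¹ := by
  classical
  have hw3 : w ^ 3 = 1 := by
    have := FiniteField.pow_card_sub_one_eq_one w hw; rwa [hF] at this
  have hchar : CharP F 2 := by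
    obtain ⟨p, hp⟩ := CharP.exists F
    obtain ⟨m, hpp, hm⟩ := FiniteField.card F p
    rw [hF] at hm
    have : p = 2 := by
      have h2 : p ∣ 2 ^ 2 := by rw [show (2 : ℕ) ^ 2 = 4 from rfl, hm]; exact dvd_pow_self p m.pos.ne'
      exact (Nat.prime_dvd_prime_iff_eq hpp Nat.prime_two).1 (hpp.dvd_of_dvd_pow h2)
    exact this ▸ hp
  have h2 : (2 : F) = 0 := CharTwo.two_eq_zero
  have hsum : 1 + w + w ^ 2 = 0 := by
    have : (w - 1) * (1 + w + w ^ 2) = 0 := by linear_combination hw3
    exact (mul_eq_zero.1 this).resolve_left (sub_ne_zero.2 hw1)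
  let f : Module.End F (Fin 3 → F) := Matrix.toLinAlgEquiv' (g : Matrix (Fin 3) (Fin 3) F)
  have hf3 : f ^ 3 = 1 := by
    rw [← map_pow, show (g : Matrix (Fin 3) (Fin 3) F) ^ 3 = 1 from
      (Matrix.SpecialLinearGroup.coe_pow g 3).symm.trans (congrArg Subtype.val hg), map_one]
  have hspan : Submodule.span F {v : Fin 3 → F | ∃ c : F, c ^ 3 = 1 ∧ f v = c • v} = ⊤ := by
    rw [eq_top_iff]
    intro v _
    let P : F → (Fin 3 → F) := fun c => v + c ^ 2 • f v + c • (f ^ 2) v
    have hfP : ∀ c : F, c ^ 3 = 1 → f (P c) = c • P c := by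
      intro c hc
      have e2 : f ((f ^ 2) v) = v := by
        rw [← Module.End.mul_apply, ← pow_succ', hf3, Module.End.one_apply]
      have e1 : f (f v) = (f ^ 2) v := by rw [pow_two, Module.End.mul_apply]
      simp only [P, map_add, map_smul, e1, e2, smul_add, smul_smul]
      rw [show c * c ^ 2 = 1 by linear_combination hc, show c * c = c ^ 2 by ring, one_smul]
      abel
    have hv : v = P 1 + P w + P (w ^ 2) := by
      have hw4 : (w ^ 2) ^ 2 = w := by linear_combination w * hw3
      simp only [P, one_pow, one_smul, hw4]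
      funext i
      simp only [Pi.add_apply, Pi.smul_apply, smul_eq_mul]
      linear_combination -(f v i + (f ^ 2) v i) * hsum - v i * h2
    rw [hv]
    refine add_mem (add_mem ?_ ?_) ?_ <;> refine Submodule.subset_span ⟨_, ?_, hfP _ ?_⟩
    · exact one_pow 3
    · exact one_pow 3
    · exact hw3
    · exact hw3
    · rw [← pow_mul, mul_comm, pow_mul, hw3, one_pow]
    · rw [← pow_mul, mul_comm, pow_mul, hw3, one_pow]
  obtain ⟨s, hsS, hsspan, hsli⟩ := exists_linearIndependent F {v : Fin 3 → F | ∃ c : F, c ^ 3 = 1 ∧ f v = c • v}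
  rw [hspan] at hsspan
  let b₁ : Module.Basis s F (Fin 3 → F) := Module.Basis.mk hsli (by simp [hsspan])
  haveI : Fintype s := FiniteDimensional.fintypeBasisIndex b₁
  have hcard : Fintype.card s = 3 := by
    rw [← Module.finrank_eq_card_basis b₁, Module.finrank_fin_fun]
  let b := b₁.reindex (Fintype.equivFinOfCardEq hcard)
  have hex : ∀ i, ∃ c : F, c ^ 3 = 1 ∧ f (b i) = c • b i := by
    intro i
    have h := hsS ((Fintype.equivFinOfCardEq hcard).symm i).2
    simpa [b, b₁] using h
  choose μ hμ3 hμ using hex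
  have hprod : μ 0 * μ 1 * μ 2 = 1 := by
    have h1 : LinearMap.toMatrix b b f = diagonal μ := by
      ext i j
      rw [LinearMap.toMatrix_apply, hμ, map_smul, b.repr_self, Finsupp.smul_single, smul_eq_mul, mul_one]
      by_cases hij : i = j
      · subst hij; simp
      · simp [hij]
    have h2 := congrArg Matrix.det h1
    rw [LinearMap.det_toMatrix, det_diagonal, Fin.prod_univ_three] at h2
    rw [← h2]
    show LinearMap.det (Matrix.toLin' (g : Matrix (Fin 3) (Fin 3) F)) = 1
    rw [LinearMap.det_toLin', g.2]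
  have hinj : Function.Injective μ := by
    have key : ∀ x y z : F, x ^ 3 = 1 → x * y * z = 1 → y = x → z = x := by
      intro x y z hx hxyz hy
      subst hy
      have hy0 : y ≠ 0 := fun h0 => by simp [h0] at hx
      apply mul_left_cancel₀ (mul_ne_zero hy0 hy0)
      linear_combination hxyz - hx
    have hall : ¬ (μ 0 = μ 1 ∧ μ 0 = μ 2) := by
      rintro ⟨e1, e2⟩
      apply hns
      rw [Matrix.SpecialLinearGroup.mem_center_iff]
      refine ⟨μ 0, by simpa using hμ3 0, ?_⟩
      have : f = μ 0 • (1 : Module.End F (Fin 3 → F)) := b.ext fun i => by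
        rw [hμ, LinearMap.smul_apply, Module.End.one_apply]
        fin_cases i <;> simp [← e1, ← e2]
      apply (Matrix.toLinAlgEquiv' (R := F) (n := Fin 3)).injective
      change _ = f
      rw [this, ← map_one (Matrix.toLinAlgEquiv' (R := F) (n := Fin 3)), ← map_smul]
      congr 1
      rw [Matrix.smul_one_eq_diagonal]; rfl
    intro i j hij
    by_contra hne
    fin_cases i <;> fin_cases j <;> simp at hne hij
    · exact hall ⟨hij, (key _ _ _ (hμ3 0) hprod hij.symm).symm⟩
    · exact hall ⟨(key (μ 0) (μ 2) (μ 1) (hμ3 0) (by rw [← hprod]; ring) hij.symm).symm, hij⟩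
    · exact hall ⟨hij.symm, (key _ _ _ (hμ3 0) hprod hij).symm⟩
    · have h := key (μ 1) (μ 2) (μ 0) (hμ3 1) (by rw [← hprod]; ring) hij.symm
      exact hall ⟨h, by rw [h, hij]⟩
    · exact hall ⟨(key (μ 0) (μ 2) (μ 1) (hμ3 0) (by rw [← hprod]; ring) hij).symm, hij.symm⟩
    · have h := key (μ 1) (μ 2) (μ 0) (hμ3 1) (by rw [← hprod]; ring) hij
      exact hall ⟨h, by rw [h, ← hij]⟩
  have hmem : ∀ d : F, d ^ 3 = 1 → d = 1 ∨ d = w ∨ d = w ^ 2 := by
    intro d hd
    have : (d - 1) * ((d - w) * (d - w ^ 2)) = 0 := by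
      linear_combination hd - (d ^ 2 - d * w) * hsum - hw3
    rcases mul_eq_zero.1 this with h | h
    · exact Or.inl (sub_eq_zero.1 h)
    · rcases mul_eq_zero.1 h with h | h
      · exact Or.inr (Or.inl (sub_eq_zero.1 h))
      · exact Or.inr (Or.inr (sub_eq_zero.1 h))
  have hv : ∀ d : Fin 3, ∃ i, μ i = ![1, w, w ^ 2] d := by
    have h1 : Finset.univ.image μ = Finset.univ.image ![1, w, w ^ 2] := by
      apply Finset.eq_of_subset_of_card_le
      · intro d hd
        obtain ⟨i, -, rfl⟩ := Finset.mem_image.1 hd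
        rcases hmem _ (hμ3 i) with h | h | h <;> rw [Finset.mem_image]
        · exact ⟨0, Finset.mem_univ _, h.symm⟩
        · exact ⟨1, Finset.mem_univ _, h.symm⟩
        · exact ⟨2, Finset.mem_univ _, h.symm⟩
      · rw [Finset.card_image_of_injective _ hinj]
        exact Finset.card_image_le
    intro d
    have : ![1, w, w ^ 2] d ∈ Finset.univ.image μ := h1 ▸ Finset.mem_image_of_mem _ (Finset.mem_univ d)
    obtain ⟨i, -, hi⟩ := Finset.mem_image.1 this
    exact ⟨i, hi⟩
  choose σ hσ using hv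
  have hσinj : Function.Injective σ := by
    intro a c h
    have e : ![1, w, w ^ 2] a = ![1, w, w ^ 2] c := by rw [← hσ, ← hσ, h]
    have hw21 : w ^ 2 ≠ 1 := fun h => hw1 (by linear_combination hw3 - w * h)
    have hw2w : w ^ 2 ≠ w := fun h => hw1 (mul_left_cancel₀ hw (by linear_combination h))
    fin_cases a <;> fin_cases c <;>
      simp [hw1, hw21, hw2w, Ne.symm hw1, Ne.symm hw21, Ne.symm hw2w, -sq_eq_one_iff] at e ⊢
  let M : Matrix (Fin 3) (Fin 3) F := Matrix.of fun i j => b (σ j) i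
  have hMunit : IsUnit M := by
    have e : M = ((Pi.basisFun F (Fin 3)).toMatrix (fun j => b (σ j))) := by
      ext i j; simp [M, Module.Basis.toMatrix_apply]
    have hli : LinearIndependent F fun j => b (σ j) := b.linearIndependent.comp σ hσinj
    rw [← Matrix.linearIndependent_cols_iff_isUnit]
    exact hli
  have hMdet : M.det ≠ 0 := ((Matrix.isUnit_iff_isUnit_det M).1 hMunit).ne_zero
  let h : SpecialLinearGroup (Fin 3) F := ⟨M * diagonal ![M.det⁻¹, 1, 1], by
    rw [det_mul, det_diagonal, Fin.prod_univ_three]; simp [hMdet]⟩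
  refine ⟨h, ?_⟩
  rw [eq_mul_inv_iff_mul_eq]
  apply Subtype.ext
  show (g : Matrix (Fin 3) (Fin 3) F) * (M * diagonal ![M.det⁻¹, 1, 1]) =
    (M * diagonal ![M.det⁻¹, 1, 1]) * (D : Matrix (Fin 3) (Fin 3) F)
  have hgM : (g : Matrix (Fin 3) (Fin 3) F) * M = M * diagonal ![1, w, w ^ 2] := by
    ext i j
    have := congrFun (hμ (σ j)) i
    rw [hσ, show f (b (σ j)) = Matrix.mulVec (g : Matrix (Fin 3) (Fin 3) F) (b (σ j)) from rfl] at this
    rw [mul_diagonal]
    simpa [M, Matrix.mul_apply, Matrix.mulVec, dotProduct, mul_comm] using this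
  rw [← mul_assoc, hgM, hD, mul_assoc, mul_assoc, diagonal_mul_diagonal, diagonal_mul_diagonal]
  congr 2; funext i; exact mul_comm _ _

/-- The subgroups of order three of `PSL_3(4)` form one class. -/
theorem psl34_order_three_conj (hF : Fintype.card F = 4)
    (X Y : Subgroup (ProjectiveSpecialLinearGroup (Fin 3) F)) (hX : Nat.card ↥X = 3) (hY : Nat.card ↥Y = 3) :
    ∃ g : ProjectiveSpecialLinearGroup (Fin 3) F, MulAut.conj g • X = Y := by
  classical
  obtain ⟨w, hw⟩ := Infinite.exists_notMem_finset (α := ℕ) ∅ |>.elim fun _ _ =>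
    (Finset.exists_mem_notMem_of_card_lt_card (s := ({0, 1} : Finset F)) (t := Finset.univ)
      (by rw [Finset.card_univ, hF]; exact lt_of_le_of_lt Finset.card_le_two (by norm_num))).imp fun _ h => h.2
  simp only [Finset.mem_insert, Finset.mem_singleton, not_or] at hw
  obtain ⟨hw0, hw1⟩ := hw
  have hw3 : w ^ 3 = 1 := by
    have := FiniteField.pow_card_sub_one_eq_one w hw0; rwa [hF] at this
  let D : SpecialLinearGroup (Fin 3) F := ⟨diagonal ![1, w, w ^ 2], by
    rw [det_diagonal, Fin.prod_univ_three]; simp; linear_combination hw3⟩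
  let π : SpecialLinearGroup (Fin 3) F →* ProjectiveSpecialLinearGroup (Fin 3) F := QuotientGroup.mk' _
  have key : ∀ Z : Subgroup (ProjectiveSpecialLinearGroup (Fin 3) F), Nat.card ↥Z = 3 →
      ∃ g : ProjectiveSpecialLinearGroup (Fin 3) F, MulAut.conj g • Subgroup.zpowers (π D) = Z := by
    intro Z hZ
    haveI : Fact (Nat.Prime 3) := ⟨Nat.prime_three⟩
    haveI : Nontrivial Z := Finite.one_lt_card_iff_nontrivial.1 (by omega)
    obtain ⟨⟨z, hz⟩, hz1⟩ := exists_ne (1 : Z)
    have hord : orderOf z = 3 := by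
      have h1 : orderOf (⟨z, hz⟩ : Z) = 3 := orderOf_eq_prime ((congrArg ((⟨z, hz⟩ : Z) ^ ·) hZ.symm).trans pow_card_eq_one') hz1
      rwa [← Subgroup.orderOf_coe] at h1
    have hZz : Subgroup.zpowers z = Z := by
      apply Subgroup.eq_of_le_of_card_ge
      · rwa [Subgroup.zpowers_le]
      · rw [Nat.card_zpowers, hord, hZ]
    obtain ⟨g, rfl⟩ := QuotientGroup.mk'_surjective _ z
    have hg3 : g ^ 3 ∈ Subgroup.center (SpecialLinearGroup (Fin 3) F) := by
      rw [← QuotientGroup.eq_one_iff]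
      have := pow_orderOf_eq_one (QuotientGroup.mk' (Subgroup.center (SpecialLinearGroup (Fin 3) F)) g)
      rw [hord] at this
      simpa using this
    obtain ⟨h, hh⟩ := conj_diag_of_cube_eq_one hF w hw0 hw1 D rfl g (cube_eq_one hF g hg3) (fun hc => by
      rw [← QuotientGroup.eq_one_iff] at hc
      exact hz1 (Subtype.ext hc))
    refine ⟨π h, ?_⟩
    rw [← hZz, hh, Subgroup.pointwise_smul_def]
    show Subgroup.map (MulAut.conj (π h)).toMonoidHom (Subgroup.zpowers (π D)) = _
    rw [MonoidHom.map_zpowers]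
    simp [π]
  obtain ⟨a, ha⟩ := key X hX
  obtain ⟨b, hb⟩ := key Y hY
  exact ⟨b * a⁻¹, by rw [← ha, smul_smul, ← map_mul, inv_mul_cancel_right, hb]⟩

end Cfsg.Agent.H70
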