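import Cfsg.Agent.H70.Weights

set_option autoImplicit false
set_option linter.style.haveILetI false
set_option linter.unusedSimpArgs false

/-! Cross-characteristic degree bound for `SL_n(q)`. -/

namespace Cfsg.Agent.H70

open Matrix

variable {F : Type*} [Field F] {m : ℕ}

/-- Determinant of a rank-one update of the identity. -/
theorem det_one_add_vecMulVec' {ι : Type*} [Fintype ι] [DecidableEq ι] {R : Type*} [CommRing R] (u v : ι → R) :
    det (1 + vecMulVec u v) = 1 + v ⬝ᵥ u := by
  rw [vecMulVec_eq Unit, det_one_add_replicateCol_mul_replicateRow]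

/-- The row-vector transvection group at the first point of `SL_{m+1}`. -/
def rowUnip : Multiplicative (Fin m → F) →* SpecialLinearGroup (Fin (m + 1)) F where
  toFun v := ⟨1 + vecMulVec (Pi.single 0 1) (Fin.cons 0 v.toAdd), by
    rw [det_one_add_vecMulVec']; simp⟩
  map_one' := Subtype.ext (by
    change 1 + vecMulVec (Pi.single 0 1) (Fin.cons 0 (0 : Fin m → F)) = 1
    ext i j; refine Fin.cases ?_ ?_ j <;> simp [vecMulVec_apply])
  map_mul' v w := Subtype.ext (by
    change 1 + vecMulVec (Pi.single 0 1) (Fin.cons 0 (v.toAdd + w.toAdd)) =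
      (1 + vecMulVec (Pi.single 0 1) (Fin.cons 0 v.toAdd)) *
        (1 + vecMulVec (Pi.single 0 1) (Fin.cons 0 w.toAdd))
    have e : (Fin.cons 0 (v.toAdd + w.toAdd) : Fin (m + 1) → F) =
        Fin.cons 0 v.toAdd + Fin.cons 0 w.toAdd := by
      funext i; refine Fin.cases ?_ ?_ i <;> simp
    rw [e, vecMulVec_add, add_mul, one_mul, mul_add, mul_one, vecMulVec_mul_vecMulVec]
    simp [add_assoc, add_comm, add_left_comm])

/-- The block transvection `1 + (0,u) ⊗ (0,f)`. -/
def lowerTransvection (u f : Fin m → F) (h : f ⬝ᵥ u = 0) : SpecialLinearGroup (Fin (m + 1)) F :=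
  ⟨1 + vecMulVec (Fin.cons 0 u) (Fin.cons 0 f), by
    rw [det_one_add_vecMulVec']
    simp [dotProduct, Fin.sum_univ_succ] at h ⊢
    exact h⟩

theorem rowUnip_mul_lowerTransvection (u f : Fin m → F) (h : f ⬝ᵥ u = 0) (v : Multiplicative (Fin m → F)) :
    rowUnip v * lowerTransvection u f h =
      lowerTransvection u f h * rowUnip (Multiplicative.ofAdd (v.toAdd + (v.toAdd ⬝ᵥ u) • f)) := by
  apply Subtype.ext
  change (1 + vecMulVec (Pi.single 0 1) (Fin.cons 0 v.toAdd)) * (1 + vecMulVec (Fin.cons 0 u) (Fin.cons 0 f)) =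
    (1 + vecMulVec (Fin.cons 0 u) (Fin.cons 0 f)) *
      (1 + vecMulVec (Pi.single 0 1) (Fin.cons 0 (v.toAdd + (v.toAdd ⬝ᵥ u) • f)))
  have e : (Fin.cons 0 (v.toAdd + (v.toAdd ⬝ᵥ u) • f) : Fin (m + 1) → F) =
      Fin.cons 0 v.toAdd + (v.toAdd ⬝ᵥ u) • Fin.cons 0 f := by
    funext i; refine Fin.cases ?_ ?_ i <;> simp
  rw [e, vecMulVec_add, vecMulVec_smul]
  simp only [add_mul, mul_add, one_mul, mul_one, mul_smul_comm, vecMulVec_mul_vecMulVec,
    vecMulVec_smul, dotProduct_single, Fin.cons_zero, zero_mul, zero_smul, smul_zero, smul_add, vecMulVec_zero, add_zero, zero_add]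
  have e2 : (Fin.cons 0 v.toAdd : Fin (m + 1) → F) ⬝ᵥ Fin.cons 0 u = v.toAdd ⬝ᵥ u := by
    simp [dotProduct, Fin.sum_univ_succ]
  rw [e2]
  abel

/-- Landazuri-Seitz bound for `SL_n(q)` in its elementary form. -/
theorem sl_cross_char_bound [Fintype F] {K : Type*} [Field K] (hK : ringChar K ≠ ringChar F) (hm : 2 ≤ m) {d : ℕ}
    (ρ : SpecialLinearGroup (Fin (m + 1)) F →* GL (Fin d) K)
    (hker : ρ.ker ≤ Subgroup.center (SpecialLinearGroup (Fin (m + 1)) F)) :
    Fintype.card F ^ m - 1 ≤ d := by
  classical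
  let k := AlgebraicClosure K
  let T := closureRep ρ
  let TA := T.comp rowUnip
  obtain ⟨p, hp⟩ := CharP.exists F
  haveI := hp
  have hpp : p.Prime := (CharP.char_is_prime_or_zero F p).resolve_right (CharP.char_ne_zero_of_finite F p)
  haveI := Fact.mk hpp
  have hpk : (p : k) ≠ 0 := by
    intro h0
    apply hK
    have h0' : (p : K) = 0 := (algebraMap K k).injective (by rw [map_natCast, h0, map_zero])
    rw [ringChar.eq F p]
    haveI : CharP K p := (CharP.charP_iff_prime_eq_zero hpp).2 h0'
    exact ringChar.eq K p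
  have hexp : ∀ a : Multiplicative (Fin m → F), a ^ p = 1 := by
    intro a
    apply Multiplicative.toAdd.injective
    simp [toAdd_pow, funext_iff, CharP.cast_eq_zero F p]
  obtain ⟨i₀⟩ : Nonempty (Fin m) := ⟨⟨0, by omega⟩⟩
  set a₁ : Multiplicative (Fin m → F) := Multiplicative.ofAdd (Pi.single i₀ 1) with ha₁
  have hTa : TA a₁ ≠ 1 := by
    intro h
    have h1 := hker (show ρ (rowUnip a₁) = 1 from (closureRep_eq_one_iff ρ _).1 h)
    obtain ⟨r, _, hr⟩ := Matrix.SpecialLinearGroup.mem_center_iff.1 h1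
    have h2 := congrFun (congrFun hr 0) i₀.succ
    change (diagonal fun _ => r) 0 i₀.succ =
      (1 + vecMulVec (Pi.single 0 1) (Fin.cons 0 (Pi.single i₀ (1 : F)))) 0 i₀.succ at h2
    simp [vecMulVec_apply, (Fin.succ_ne_zero i₀).symm] at h2
  obtain ⟨χ, hχ, hχ1⟩ := exists_weight_ne_one TA a₁ hpk (hexp a₁) hTa
  -- the additive character
  let ψ : F → k := fun t => χ (Multiplicative.ofAdd (Pi.single i₀ t))
  have hψadd : ∀ s t, ψ (s + t) = ψ s * ψ t := fun s t => by
    simp only [ψ, Pi.single_add, ofAdd_add, map_mul]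
  have hψ0 : ψ 0 = 1 := by simp [ψ]
  have hψ1 : ψ 1 ≠ 1 := hχ1
  let χx : (Fin m → F) → Multiplicative (Fin m → F) →* k := fun x =>
    { toFun := fun v => ψ (x ⬝ᵥ v.toAdd)
      map_one' := by simp [hψ0]
      map_mul' := fun v w => by simp [dotProduct_add, hψadd] }
  have hinj : Function.Injective χx := by
    intro x y h
    funext i
    by_contra hne
    have hne' : x i - y i ≠ 0 := sub_ne_zero.2 hne
    have e := DFunLike.congr_fun h (Multiplicative.ofAdd (Pi.single i (x i - y i)⁻¹))
    simp only [χx, MonoidHom.coe_mk, OneHom.coe_mk, toAdd_ofAdd, dotProduct_single] at e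
    have hu : ψ (y i * (x i - y i)⁻¹) ≠ 0 := by
      intro h0
      have := hψadd (y i * (x i - y i)⁻¹) (-(y i * (x i - y i)⁻¹))
      rw [h0, zero_mul, add_neg_cancel, hψ0] at this
      exact one_ne_zero this
    rw [show x i * (x i - y i)⁻¹ = y i * (x i - y i)⁻¹ + 1 by field_simp; ring, hψadd] at e
    exact hψ1 (by simpa [hu] using e)
  haveI : Finite (Multiplicative (Fin m → F)) := Finite.of_equiv _ Multiplicative.ofAdd
  obtain ⟨x₀, hx₀⟩ := surjective_of_card_le χx hinj (by
    rw [Nat.card_congr Multiplicative.toAdd, Nat.card_eq_fintype_card]) χ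
  let S : Set (Fin m → F) := {x | IsWeight TA (χx x)}
  have hS0 : x₀ ∈ S := by show IsWeight TA _; rw [hx₀]; exact hχ
  have hx0ne : x₀ ≠ 0 := by
    rintro rfl
    exact hχ1 (by rw [← hx₀]; simp [χx, hψ0])
  -- closure under transvections
  have hmove : ∀ x ∈ S, ∀ u f : Fin m → F, f ⬝ᵥ u = 0 → x + (x ⬝ᵥ f) • u ∈ S := by
    intro x hx u f h
    let α : Multiplicative (Fin m → F) →* Multiplicative (Fin m → F) :=
      { toFun := fun v => Multiplicative.ofAdd (v.toAdd + (v.toAdd ⬝ᵥ u) • f)
        map_one' := by simp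
        map_mul' := fun v w => by
          rw [← ofAdd_add]; congr 1; simp [add_dotProduct, add_smul]; abel }
    have := IsWeight.conj (T := T) (e := rowUnip) hx (lowerTransvection u f h) α
      (fun a => rowUnip_mul_lowerTransvection u f h a)
    show IsWeight TA (χx (x + (x ⬝ᵥ f) • u))
    convert this using 1
    refine MonoidHom.ext fun v => ?_
    show ψ ((x + (x ⬝ᵥ f) • u) ⬝ᵥ v.toAdd) = ψ (x ⬝ᵥ (v.toAdd + (v.toAdd ⬝ᵥ u) • f))
    congr 1
    simp [add_dotProduct, dotProduct_add, smul_dotProduct, dotProduct_smul, dotProduct_comm u]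
    ring
  have hstep : ∀ x ∈ S, x ≠ 0 → ∀ y, (∀ c : F, y ≠ c • x) → y ∈ S := by
    intro x hx hxne y hy
    obtain ⟨φ, hφx, hφy⟩ : ∃ φ : Module.Dual F (Fin m → F), φ x = 1 ∧ φ y = 1 := by
      have hli : LinearIndependent F ![x, y] :=
        (LinearIndependent.pair_iff' hxne).2 fun c hc => hy c hc.symm
      let b := Module.Basis.span hli
      obtain ⟨g, hg⟩ := LinearMap.exists_extend (b.constr F ![(1 : F), 1])
      refine ⟨g, ?_, ?_⟩
      · have := DFunLike.congr_fun hg (b 0)
        simp only [LinearMap.comp_apply, Submodule.subtype_apply, Module.Basis.constr_basis] at this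
        rw [show ((b 0 : Submodule.span F (Set.range ![x, y])) : Fin m → F) = x from congrArg Subtype.val (Module.Basis.span_apply hli 0)] at this
        simpa using this
      · have := DFunLike.congr_fun hg (b 1)
        simp only [LinearMap.comp_apply, Submodule.subtype_apply, Module.Basis.constr_basis] at this
        rw [show ((b 1 : Submodule.span F (Set.range ![x, y])) : Fin m → F) = y from congrArg Subtype.val (Module.Basis.span_apply hli 1)] at this
        simpa using this
    let f : Fin m → F := fun i => φ (Pi.single i 1)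
    have hf : ∀ z, f ⬝ᵥ z = φ z := by
      intro z
      conv_rhs => rw [pi_eq_sum_univ' z]
      simp [dotProduct, f, mul_comm]
    have := hmove x hx (y - x) f (by rw [hf, map_sub, hφx, hφy, sub_self])
    rwa [dotProduct_comm, hf, hφx, one_smul, add_sub_cancel] at this
  have hall : ∀ y : Fin m → F, y ≠ 0 → y ∈ S := by
    intro y hy
    by_cases h : ∀ c : F, y ≠ c • x₀
    · exact hstep x₀ hS0 hx0ne y h
    · push Not at h
      obtain ⟨c, rfl⟩ := h
      have hc : c ≠ 0 := fun h0 => hy (by simp [h0])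
      obtain ⟨z, hz⟩ : ∃ z, z ∉ Submodule.span F ({x₀} : Set (Fin m → F)) := by
        refine SetLike.exists_not_mem_of_ne_top _ (fun htop => ?_) rfl
        have h1 := finrank_span_singleton (K := F) hx0ne
        rw [htop, finrank_top, Module.finrank_fin_fun] at h1
        omega
      rw [Submodule.mem_span_singleton] at hz
      push Not at hz
      refine hstep z (hstep x₀ hS0 hx0ne z fun c' h' => hz c' h'.symm)
        (fun h0 => hz 0 (by simp [h0])) _ fun c' h' => ?_
      have hc' : c' ≠ 0 := by rintro rfl; exact hy (by simpa using h')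
      exact hz (c'⁻¹ * c) (by rw [mul_smul, h', smul_smul, inv_mul_cancel₀ hc', one_smul])
  have := card_weights_le TA (fun x : {x : Fin m → F // x ≠ 0} => χx x.1)
    (hinj.comp Subtype.val_injective) (fun x => hall x.1 x.2)
  rw [Module.finrank_fin_fun] at this
  refine le_trans (le_of_eq ?_) this
  rw [Fintype.card_subtype_compl, Fintype.card_subtype_eq]
  simp

end Cfsg.Agent.H70
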