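import Cfsg.Agent.H70.VecChars

set_option autoImplicit false
set_option linter.style.haveILetI false
set_option linter.unusedSimpArgs false

/-! Cross-characteristic degree bound for `Sp_{2n}(q)`, `q` odd. -/

namespace Cfsg.Agent.H70

open Matrix

variable {F : Type*} [Field F] {m : ℕ}

/-- The symmetric matrix supported on the first row and column with first row `b`. -/
def crossMat (b : Fin (m + 1) → F) : Matrix (Fin (m + 1)) (Fin (m + 1)) F :=
  Matrix.of fun i j => if i = 0 then b j else if j = 0 then b i else 0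

theorem crossMat_transpose (b : Fin (m + 1) → F) : (crossMat b)ᵀ = crossMat b := by
  ext i j
  simp only [crossMat, transpose_apply, of_apply]
  by_cases hi : i = 0 <;> by_cases hj : j = 0 <;> simp [hi, hj]

theorem crossMat_add (b c : Fin (m + 1) → F) : crossMat (b + c) = crossMat b + crossMat c := by
  ext i j
  simp only [crossMat, of_apply, Matrix.add_apply, Pi.add_apply]
  split_ifs <;> simp

/-- The abelian unipotent group of symplectic matrices `[1, crossMat b; 0, 1]`. -/
def spUnip : Multiplicative (Fin (m + 1) → F) →* ↥(symplecticGroup (Fin (m + 1)) F) where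
  toFun b := ⟨fromBlocks 1 (crossMat b.toAdd) 0 1, by
    rw [SymplecticGroup.mem_iff, J, fromBlocks_multiply, fromBlocks_transpose, fromBlocks_multiply]
    simp [crossMat_transpose]⟩
  map_one' := Subtype.ext (by
    change fromBlocks 1 (crossMat (0 : Fin (m + 1) → F)) 0 1 = 1
    rw [← fromBlocks_one]; congr 1
    ext i j; simp [crossMat])
  map_mul' b c := Subtype.ext (by
    change fromBlocks 1 (crossMat (b.toAdd + c.toAdd)) 0 1 =
      fromBlocks 1 (crossMat b.toAdd) 0 1 * fromBlocks 1 (crossMat c.toAdd) 0 1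
    rw [fromBlocks_multiply, crossMat_add]; simp [add_comm])

/-- A block-diagonal symplectic matrix. -/
def leviElem {n : ℕ} (P Q : Matrix (Fin n) (Fin n) F) (h : P * Qᵀ = 1) : ↥(symplecticGroup (Fin n) F) :=
  ⟨fromBlocks P 0 0 Q, by
    rw [SymplecticGroup.mem_iff, J, fromBlocks_multiply, fromBlocks_transpose, fromBlocks_multiply]
    have h' : Q * Pᵀ = 1 := by rw [← transpose_transpose Q, ← transpose_mul, h, transpose_one]
    simp [h, h']⟩

theorem spUnip_mul_leviElem (P Q : Matrix (Fin (m + 1)) (Fin (m + 1)) F) (h : P * Qᵀ = 1)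
    (b b' : Fin (m + 1) → F) (he : crossMat b * Q = P * crossMat b') :
    spUnip (Multiplicative.ofAdd b) * leviElem P Q h = leviElem P Q h * spUnip (Multiplicative.ofAdd b') := by
  apply Subtype.ext
  change fromBlocks 1 (crossMat b) 0 1 * fromBlocks P 0 0 Q = fromBlocks P 0 0 Q * fromBlocks 1 (crossMat b') 0 1
  rw [fromBlocks_multiply, fromBlocks_multiply]
  simp [he]

/-- The bound `q^{n-1}(q-1)/2` for faithful cross-characteristic representations of `Sp_{2n}(q)`. -/
theorem sp_cross_char_bound [Fintype F] {K : Type*} [Field K] (hodd : Odd (Fintype.card F))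
    (hK : ringChar K ≠ ringChar F) {d : ℕ}
    (ρ : ↥(symplecticGroup (Fin (m + 1)) F) →* GL (Fin d) K)
    (hker : ρ.ker ≤ Subgroup.center ↥(symplecticGroup (Fin (m + 1)) F)) :
    Fintype.card F ^ m * (Fintype.card F - 1) / 2 ≤ d := by
  classical
  let k := AlgebraicClosure K
  let T := closureRep ρ
  let TA := T.comp spUnip
  obtain ⟨p, hp⟩ := CharP.exists F
  haveI := hp
  have hpk : (p : k) ≠ 0 := natCast_ne_zero_of_ringChar_ne (F := F) hK p k
  have hexp : ∀ a : Multiplicative (Fin (m + 1) → F), a ^ p = 1 := by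
    intro a
    apply Multiplicative.toAdd.injective
    simp [toAdd_pow, funext_iff, CharP.cast_eq_zero F p]
  set a₁ : Multiplicative (Fin (m + 1) → F) := Multiplicative.ofAdd (Pi.single 0 1) with ha₁
  have hTa : TA a₁ ≠ 1 := by
    intro h
    have h1 := hker (show ρ (spUnip a₁) = 1 from (closureRep_eq_one_iff ρ _).1 h)
    have h2 := Subgroup.mem_center_iff.1 h1 (SymplecticGroup.symJ (Fin (m + 1)) F)
    have h3 : J (Fin (m + 1)) F * fromBlocks 1 (crossMat (Pi.single 0 (1 : F))) 0 1 =
        fromBlocks 1 (crossMat (Pi.single 0 (1 : F))) 0 1 * J (Fin (m + 1)) F := congrArg Subtype.val h2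
    rw [J, fromBlocks_multiply, fromBlocks_multiply, fromBlocks_inj] at h3
    have h4 := congrFun (congrFun h3.1 0) 0
    simp [crossMat] at h4
  obtain ⟨χ, hχ, hχ1⟩ := exists_weight_ne_one TA a₁ hpk (hexp a₁) hTa
  let ψ := lineChar χ 0
  have hψ : ψ (Multiplicative.ofAdd (1 : F)) ≠ 1 := hχ1
  obtain ⟨x₀, hx₀⟩ := vecChar_surjective (ι := Fin (m + 1)) ψ hψ χ
  let S : Set (Fin (m + 1) → F) := {x | IsWeight TA (vecChar ψ x)}
  have hS0 : x₀ ∈ S := by show IsWeight TA _; rw [hx₀]; exact hχ
  have hx0ne : x₀ 0 ≠ 0 := by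
    intro h0
    exact hχ1 (by rw [← hx₀, vecChar_apply, ha₁, toAdd_ofAdd, dotProduct_single, h0]; simp)
  -- rescaling the first point
  have hscale : ∀ x ∈ S, ∀ c : F, c ≠ 0 →
      (fun j => if j = 0 then c⁻¹ * c⁻¹ * x j else c⁻¹ * x j) ∈ S := by
    intro x hx c hc
    let P : Fin (m + 1) → F := fun i => if i = 0 then c else 1
    let Q : Fin (m + 1) → F := fun i => if i = 0 then c⁻¹ else 1
    have hPQ : diagonal P * (diagonal Q)ᵀ = 1 := by
      rw [diagonal_transpose, diagonal_mul_diagonal, diagonal_eq_one]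
      funext i; by_cases hi : i = 0 <;> simp [P, Q, hi, hc]
    let α : Multiplicative (Fin (m + 1) → F) →* Multiplicative (Fin (m + 1) → F) :=
      { toFun := fun b => Multiplicative.ofAdd fun j => if j = 0 then c⁻¹ * c⁻¹ * b.toAdd j else c⁻¹ * b.toAdd j
        map_one' := by
          show Multiplicative.ofAdd _ = Multiplicative.ofAdd 0
          congr 1; funext j; simp
        map_mul' := fun b b' => by
          rw [← ofAdd_add]; congr 1; funext j; simp [mul_add]; split_ifs <;> rfl }
    have := IsWeight.conj (T := T) (e := spUnip) hx (leviElem _ _ hPQ) α (fun b => by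
      refine spUnip_mul_leviElem _ _ hPQ b.toAdd _ ?_
      ext i j
      rw [mul_diagonal, diagonal_mul]
      simp only [crossMat, of_apply, P, Q, α, MonoidHom.coe_mk, OneHom.coe_mk]
      by_cases hi : i = 0 <;> by_cases hj : j = 0 <;> simp [hi, hj] <;> field_simp)
    show IsWeight TA _
    convert this using 1
    refine MonoidHom.ext fun b => ?_
    simp only [MonoidHom.comp_apply, vecChar_apply, α, MonoidHom.coe_mk, OneHom.coe_mk, toAdd_ofAdd]
    congr 2
    simp only [dotProduct]
    exact Finset.sum_congr rfl fun j _ => by split_ifs <;> ring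
  -- shearing
  have hshear : ∀ x ∈ S, ∀ u : Fin (m + 1) → F, u 0 = 0 → (fun j => x j - 2 * x 0 * u j) ∈ S := by
    intro x hx u hu
    let P : Matrix (Fin (m + 1)) (Fin (m + 1)) F := 1 + vecMulVec (Pi.single 0 1) u
    let Q : Matrix (Fin (m + 1)) (Fin (m + 1)) F := 1 - vecMulVec u (Pi.single 0 1)
    have hPQ : P * Qᵀ = 1 := by
      have : Qᵀ = 1 - vecMulVec (Pi.single 0 1) u := by
        ext i j; simp [Q, vecMulVec_apply, Matrix.one_apply, eq_comm, mul_comm]
      rw [this]
      simp only [P, add_mul, one_mul, mul_sub, mul_one, vecMulVec_mul_vecMulVec, dotProduct_single,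
        hu, zero_mul, zero_smul, vecMulVec_zero]
      abel
    let α : Multiplicative (Fin (m + 1) → F) →* Multiplicative (Fin (m + 1) → F) :=
      { toFun := fun b => Multiplicative.ofAdd (b.toAdd - Pi.single 0 (2 * (u ⬝ᵥ b.toAdd)))
        map_one' := by simp
        map_mul' := fun b b' => by
          rw [← ofAdd_add]; congr 1; simp [dotProduct_add, mul_add, Pi.single_add]; abel }
    have := IsWeight.conj (T := T) (e := spUnip) hx (leviElem _ _ hPQ) α (fun b => by
      refine spUnip_mul_leviElem _ _ hPQ b.toAdd _ ?_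
      set w := b.toAdd with hw
      change crossMat w * Q = P * crossMat (w - Pi.single 0 (2 * (u ⬝ᵥ w)))
      ext i j
      simp only [P, Q, mul_sub, add_mul, mul_one, one_mul, Matrix.sub_apply, Matrix.add_apply,
        mul_vecMulVec, vecMulVec_mul, vecMulVec_apply]
      have e1 : (crossMat w *ᵥ u) i = if i = 0 then u ⬝ᵥ w else 0 := by
        by_cases hi : i = 0
        · simp [hi, mulVec, crossMat, dotProduct, mul_comm]
        · simp only [mulVec, crossMat, dotProduct, of_apply, if_neg hi, ite_mul, zero_mul]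
          rw [Finset.sum_ite_eq' Finset.univ (0 : Fin (m + 1))]
          simp [hu]
      have e2 : (u ᵥ* crossMat (w - Pi.single 0 (2 * (u ⬝ᵥ w)))) j = if j = 0 then u ⬝ᵥ w else 0 := by
        by_cases hj : j = 0
        · subst hj
          simp only [vecMul, crossMat, dotProduct, of_apply, if_true]
          refine Finset.sum_congr rfl fun l _ => ?_
          by_cases hl : l = 0
          · subst hl; simp [hu]
          · simp [hl, Pi.single_eq_of_ne hl]
        · simp only [vecMul, crossMat, dotProduct, of_apply, if_neg hj, mul_ite, mul_zero]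
          rw [Finset.sum_ite_eq' Finset.univ (0 : Fin (m + 1))]
          simp [hu]
      rw [e1, e2]
      simp only [crossMat, of_apply]
      by_cases hi : i = 0 <;> by_cases hj : j = 0 <;> simp [hi, hj] <;> ring)
    show IsWeight TA _
    convert this using 1
    refine MonoidHom.ext fun b => ?_
    simp only [MonoidHom.comp_apply, vecChar_apply, α, MonoidHom.coe_mk, OneHom.coe_mk, toAdd_ofAdd]
    congr 2
    rw [dotProduct_sub, dotProduct_single]
    simp only [dotProduct, Finset.mul_sum, ← Finset.sum_sub_distrib]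
    exact Finset.sum_congr rfl fun j _ => by ring
  have h2 : (2 : F) ≠ 0 := by
    obtain ⟨n, hpp, hn⟩ := FiniteField.card F p
    refine Ring.two_ne_zero fun hc => ?_
    rw [ringChar.eq F p] at hc
    subst hc
    rw [hn] at hodd
    exact (Nat.not_odd_iff_even.2 ((Nat.even_pow).2 ⟨even_two, n.pos.ne'⟩)) hodd
  have hall : ∀ (c : Fˣ) (t : Fin m → F), (Fin.cons (((c ^ 2 : Fˣ) : F) * x₀ 0) t : Fin (m + 1) → F) ∈ S := by
    intro c t
    have h1 := hscale x₀ hS0 (c : F)⁻¹ (inv_ne_zero c.ne_zero)
    simp only [inv_inv] at h1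
    set x1 : Fin (m + 1) → F := fun j => if j = 0 then (c : F) * c * x₀ j else (c : F) * x₀ j with hx1
    have hx10 : x1 0 = ((c ^ 2 : Fˣ) : F) * x₀ 0 := by simp [hx1, sq]
    have hx1ne : x1 0 ≠ 0 := by rw [hx10]; exact mul_ne_zero (Units.ne_zero _) hx0ne
    have := hshear x1 h1 (Fin.cons 0 fun j => (x1 j.succ - t j) / (2 * x1 0)) (by simp)
    convert this using 1
    funext j
    refine Fin.cases ?_ ?_ j
    · simp [hx10]
    · intro i; simp only [Fin.cons_succ]; field_simp; ring
  let sq := (powMonoidHom 2 : Fˣ →* Fˣ)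
  let f : sq.range × (Fin m → F) → Multiplicative (Fin (m + 1) → F) →* k :=
    fun z => vecChar ψ (Fin.cons (((z.1 : Fˣ) : F) * x₀ 0) z.2)
  have hf : Function.Injective f := by
    intro z z' h
    have e := vecChar_injective ψ hψ h
    obtain ⟨e1, e2⟩ := Fin.cons_injective2 e
    exact Prod.ext (Subtype.ext (Units.ext (mul_right_cancel₀ hx0ne e1))) e2
  have := card_weights_le TA f hf (fun z => by
    obtain ⟨c, hc⟩ := z.1.2
    show _ ∈ S
    have := hall c z.2
    rwa [show (c ^ 2 : Fˣ) = (z.1 : Fˣ) from hc] at this)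
  rw [Module.finrank_fin_fun, Fintype.card_prod, Fintype.card_fun, Fintype.card_fin] at this
  refine le_trans ?_ this
  have hsq : Fintype.card F - 1 ≤ 2 * Fintype.card sq.range := by
    have h1 := Subgroup.card_mul_index sq.ker
    rw [Subgroup.index_ker, Nat.card_units, Nat.card_eq_fintype_card (α := F),
      Nat.card_eq_fintype_card (α := sq.range)] at h1
    have h2 : Nat.card sq.ker ≤ 2 := by
      let g : sq.ker → ({1, -1} : Finset Fˣ) := fun u => ⟨u.1, by
        have : (u.1 : F) ^ 2 = 1 := by simpa [sq] using congrArg Units.val (MonoidHom.mem_ker.1 u.2)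
        rcases sq_eq_one_iff.1 this with h | h
        · exact Finset.mem_insert.2 (Or.inl (Units.ext h))
        · exact Finset.mem_insert.2 (Or.inr (Finset.mem_singleton.2 (Units.ext (by simpa using h))))⟩
      have := Nat.card_le_card_of_injective g fun u v h => Subtype.ext (congrArg (fun z => (z.1 : Fˣ)) h)
      refine this.trans ?_
      rw [Nat.card_eq_fintype_card, Fintype.card_coe]
      exact Finset.card_le_two
    rw [← h1]; exact Nat.mul_le_mul_right _ h2
  calc Fintype.card F ^ m * (Fintype.card F - 1) / 2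
      ≤ Fintype.card F ^ m * (2 * Fintype.card sq.range) / 2 :=
        Nat.div_le_div_right (Nat.mul_le_mul_left _ hsq)
    _ = Fintype.card sq.range * Fintype.card F ^ m := by
        rw [mul_left_comm, Nat.mul_div_cancel_left _ two_pos, mul_comm]

end Cfsg.Agent.H70
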