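import Cfsg.Agent.H70.Weights

set_option autoImplicit false
set_option linter.unusedSimpArgs false
set_option linter.style.haveILetI false

/-! Faithful representations of `Sp_{2n}(F)` in the natural characteristic have degree at least `2n`. -/

namespace Cfsg.Agent.H70

open Matrix

variable {F : Type*} [Field F] {n : ℕ}

/-- `n` commuting copies of `SL_2` inside `Sp_{2n}`. -/
def slPow : (Fin n → SpecialLinearGroup (Fin 2) F) →* ↥(symplecticGroup (Fin n) F) where
  toFun g := ⟨fromBlocks (diagonal fun i => g i 0 0) (diagonal fun i => g i 0 1)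
      (diagonal fun i => g i 1 0) (diagonal fun i => g i 1 1), by
    have hdet : ∀ i, g i 0 0 * g i 1 1 - g i 0 1 * g i 1 0 = 1 := fun i => by
      have := (g i).2; rwa [det_fin_two] at this
    rw [SymplecticGroup.mem_iff, J, fromBlocks_multiply, fromBlocks_transpose, fromBlocks_multiply]
    simp only [diagonal_transpose, Matrix.mul_zero, zero_add, add_zero, Matrix.mul_one, Matrix.mul_neg,
      Matrix.neg_mul, diagonal_mul_diagonal, ← diagonal_one, diagonal_neg, diagonal_add]
    congr 1 <;> ext i j <;> by_cases hij : i = j <;>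
      simp [diagonal, hij] <;>
      first | linear_combination hdet j | linear_combination -hdet j | ring⟩
  map_one' := Subtype.ext (by
    change fromBlocks _ _ _ _ = 1
    rw [← fromBlocks_one]
    congr 1 <;> simp)
  map_mul' g h := Subtype.ext (by
    change fromBlocks _ _ _ _ = fromBlocks _ _ _ _ * fromBlocks _ _ _ _
    rw [fromBlocks_multiply]
    simp only [diagonal_mul_diagonal, diagonal_add]
    congr 1 <;> congr 1 <;> funext i <;> simp [Matrix.mul_apply, Fin.sum_univ_two])

theorem slPow_injective : Function.Injective (slPow (F := F) (n := n)) := by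
  intro g h e
  have e' : fromBlocks (diagonal fun i => g i 0 0) (diagonal fun i => g i 0 1)
      (diagonal fun i => g i 1 0) (diagonal fun i => g i 1 1) =
      fromBlocks (diagonal fun i => h i 0 0) (diagonal fun i => h i 0 1)
      (diagonal fun i => h i 1 0) (diagonal fun i => h i 1 1) := congrArg Subtype.val e
  rw [fromBlocks_inj] at e'
  funext l
  ext i j
  fin_cases i <;> fin_cases j
  · exact congrFun (diagonal_injective e'.1) l
  · exact congrFun (diagonal_injective e'.2.1) l
  · exact congrFun (diagonal_injective e'.2.2.1) l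
  · exact congrFun (diagonal_injective e'.2.2.2) l

/-- In `SL_2` over a finite field there is an element of order prime to `p`, not an involution, inverted inside the group. -/
theorem exists_inverted_semisimple [Fintype F] :
    ∃ (a b : SpecialLinearGroup (Fin 2) F) (e : ℕ), (e : F) ≠ 0 ∧ a ^ e = 1 ∧ a ^ 2 ≠ 1 ∧ a * b = b * a⁻¹ := by
  by_cases h2 : (2 : F) = 0
  · haveI : CharP F 2 := (CharP.charP_iff_prime_eq_zero Nat.prime_two).2 (by exact_mod_cast h2)
    let a : SpecialLinearGroup (Fin 2) F := ⟨!![0, 1; 1, 1], by simp [det_fin_two, CharTwo.neg_eq]⟩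
    let b : SpecialLinearGroup (Fin 2) F := ⟨!![0, 1; 1, 0], by simp [det_fin_two, CharTwo.neg_eq]⟩
    refine ⟨a, b, 3, ?_, ?_, ?_, ?_⟩
    · intro h3
      have : (1 : F) = 0 := by linear_combination (norm := (push_cast; ring_nf)) h3 - h2
      exact one_ne_zero this
    · apply Subtype.ext
      refine (Matrix.SpecialLinearGroup.coe_pow a 3).trans ?_
      change (!![0, 1; 1, 1] : Matrix (Fin 2) (Fin 2) F) ^ 3 = 1
      ext i j; fin_cases i <;> fin_cases j <;> simp [pow_succ, one_add_one_eq_two, h2, Matrix.one_apply]
    · intro h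
      have h' : ((!![0, 1; 1, 1] : Matrix (Fin 2) (Fin 2) F) ^ 2) 0 1 = 0 := by
        have := congrArg Subtype.val h
        rw [Matrix.SpecialLinearGroup.coe_pow, Matrix.SpecialLinearGroup.coe_one] at this
        exact (congrFun (congrFun this 0) 1).trans (Matrix.one_apply_ne (by decide))
      simp [pow_succ] at h'
    · apply Subtype.ext
      change (!![0, 1; 1, 1] : Matrix (Fin 2) (Fin 2) F) * !![0, 1; 1, 0] =
        !![0, 1; 1, 0] * adjugate !![0, 1; 1, 1]
      rw [adjugate_fin_two]
      ext i j; fin_cases i <;> fin_cases j <;> simp [CharTwo.neg_eq]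
  · obtain ⟨x, y, hxy⟩ : ∃ x y : F, x ^ 2 + y ^ 2 = -1 := by
      obtain ⟨x, y, hxy⟩ := FiniteField.exists_root_sum_quadratic (R := F)
        (f := Polynomial.X ^ 2) (g := Polynomial.X ^ 2 + Polynomial.C 1)
        (by simp) (by rw [Polynomial.degree_add_C (by simp)]; simp)
        (by
          obtain ⟨p, hp⟩ := CharP.exists F
          haveI := hp
          obtain ⟨m, hpp, hm⟩ := FiniteField.card F p
          rw [hm]
          have hp2 : p ≠ 2 := by
            rintro rfl
            exact h2 (by exact_mod_cast CharP.cast_eq_zero F 2)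
          exact Nat.odd_iff.1 ((hpp.odd_of_ne_two hp2).pow))
      exact ⟨x, y, by simp at hxy; linear_combination hxy⟩
    let a : SpecialLinearGroup (Fin 2) F := ⟨!![0, 1; -1, 0], by simp [det_fin_two]⟩
    let b : SpecialLinearGroup (Fin 2) F := ⟨!![x, y; y, -x], by
      simp [det_fin_two]; linear_combination -hxy⟩
    refine ⟨a, b, 4, ?_, ?_, ?_, ?_⟩
    · intro h4
      exact h2 (mul_self_eq_zero.1 (by linear_combination (norm := (push_cast; ring_nf)) h4))
    · apply Subtype.ext
      refine (Matrix.SpecialLinearGroup.coe_pow a 4).trans ?_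
      change (!![0, 1; -1, 0] : Matrix (Fin 2) (Fin 2) F) ^ 4 = 1
      ext i j; fin_cases i <;> fin_cases j <;> simp [pow_succ, Matrix.one_apply]
    · intro h
      have h' : ((!![0, 1; -1, 0] : Matrix (Fin 2) (Fin 2) F) ^ 2) 0 0 = 1 := by
        have := congrArg Subtype.val h
        rw [Matrix.SpecialLinearGroup.coe_pow, Matrix.SpecialLinearGroup.coe_one] at this
        exact (congrFun (congrFun this 0) 0).trans (Matrix.one_apply_eq 0)
      simp [pow_succ] at h'
      exact h2 (by linear_combination -h')
    · apply Subtype.ext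
      change (!![0, 1; -1, 0] : Matrix (Fin 2) (Fin 2) F) * !![x, y; y, -x] =
        !![x, y; y, -x] * adjugate !![0, 1; -1, 0]
      rw [adjugate_fin_two]
      ext i j; fin_cases i <;> fin_cases j <;> simp

/-- A faithful representation of `Sp_{2n}(F)` over `F` has degree at least `2n`. -/
theorem sp_natural_bound [Fintype F] {d : ℕ} (ρ : ↥(symplecticGroup (Fin n) F) →* GL (Fin d) F)
    (hρ : Function.Injective ρ) : 2 * n ≤ d := by
  classical
  obtain ⟨a, b, e, he, hae, ha2, hab⟩ := exists_inverted_semisimple (F := F)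
  let k := AlgebraicClosure F
  letI : CommGroup ↥(Subgroup.zpowers a) :=
    { (inferInstance : Group ↥(Subgroup.zpowers a)) with
      mul_comm := fun u v => by
        obtain ⟨i, hi⟩ := Subgroup.mem_zpowers_iff.1 u.2
        obtain ⟨j, hj⟩ := Subgroup.mem_zpowers_iff.1 v.2
        exact Subtype.ext (by
          show (u : SpecialLinearGroup (Fin 2) F) * v = v * u
          rw [← hi, ← hj, ← _root_.zpow_add, ← _root_.zpow_add, add_comm]) }
  let A := Fin n → ↥(Subgroup.zpowers a)
  let ι : A →* (Fin n → SpecialLinearGroup (Fin 2) F) :=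
    MonoidHom.compLeft (Subgroup.zpowers a).subtype (Fin n)
  let T := closureRep ρ
  let emb := slPow.comp ι
  let TA := T.comp emb
  let g₀ : ↥(Subgroup.zpowers a) := ⟨a, Subgroup.mem_zpowers a⟩
  have hek : (e : k) ≠ 0 := by
    intro h; exact he ((algebraMap F k).injective (by rw [map_natCast, h, map_zero]))
  have hw : ∀ i, ∃ χ : A →* k, IsWeight TA χ ∧ χ (Pi.mulSingle i g₀) ^ 2 ≠ 1 := by
    intro i
    have hg₀e : g₀ ^ e = 1 := Subtype.ext (by simpa [g₀] using hae)
    obtain ⟨χ, hχ, hne⟩ := exists_weight_ne_one TA ((Pi.mulSingle i g₀ : A) ^ 2) hek (by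
        rw [← pow_mul, ← Pi.mulSingle_pow, mul_comm, pow_mul, hg₀e, one_pow, Pi.mulSingle_one]) (by
      intro h
      have h1 := hρ (((closureRep_eq_one_iff ρ _).1 h).trans (map_one ρ).symm)
      have h2 := slPow_injective (h1.trans (map_one slPow).symm)
      have h3 := congrFun h2 i
      change (((Pi.mulSingle i g₀ : A) i ^ 2 : ↥(Subgroup.zpowers a)) : SpecialLinearGroup (Fin 2) F) = 1 at h3
      rw [Pi.mulSingle_eq_same] at h3
      exact ha2 h3)
    exact ⟨χ, hχ, by rwa [← map_pow]⟩
  let ev : (A →* k) → (Fin n → k) := fun χ i => χ (Pi.mulSingle i g₀)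
  let Wset : Set (Fin n → k) := ev '' {χ | IsWeight TA χ}
  have hbound : ∀ P : Finset (Fin n → k), (P : Set (Fin n → k)) ⊆ Wset → P.card ≤ d := by
    intro P hP
    have : ∀ x : P, ∃ χ, IsWeight TA χ ∧ ev χ = x.1 := fun x => hP x.2
    choose χ hχ hev using this
    have := card_weights_le TA χ (fun x y h => Subtype.ext (by rw [← hev, ← hev, h])) hχ
    simpa using this
  have hfin : Wset.Finite := by
    by_contra hinf
    obtain ⟨P, hP, hPc⟩ := (Set.Infinite.exists_subset_card_eq hinf (d + 1))
    have := hbound P hP
    omega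
  refine le_trans ?_ (hbound hfin.toFinset (by simp))
  have := two_mul_card_le_of_flip (Finset.univ : Finset (Fin n)) hfin.toFinset ?_ ?_ ?_
  · simpa using this
  · intro x hx i
    obtain ⟨χ, -, rfl⟩ := hfin.mem_toFinset.1 hx
    exact ((Group.isUnit (Pi.mulSingle i g₀ : A)).map χ).ne_zero
  · intro x hx i _
    obtain ⟨χ, hχ, rfl⟩ := hfin.mem_toFinset.1 hx
    rw [hfin.mem_toFinset]
    let α : A →* A :=
      { toFun := fun z => Function.update z i (z i)⁻¹
        map_one' := by
          funext j; by_cases hj : j = i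
          · subst hj; rw [Function.update_self]; exact inv_one
          · rw [Function.update_of_ne hj]
        map_mul' := fun z w => by
          funext j; by_cases hj : j = i
          · subst hj; rw [Pi.mul_apply, Pi.mul_apply, Function.update_self, Function.update_self, Function.update_self]
            exact mul_inv _ _
          · show Function.update (z * w) i ((z * w) i)⁻¹ j = Function.update z i (z i)⁻¹ j * Function.update w i (w i)⁻¹ j
            rw [Function.update_of_ne hj, Function.update_of_ne hj, Function.update_of_ne hj]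
            rfl }
    refine ⟨χ.comp α, IsWeight.conj (T := T) (e := emb) hχ (slPow (Pi.mulSingle i b)) α (fun z => ?_), ?_⟩
    · simp only [emb, MonoidHom.comp_apply, ← map_mul]
      congr 1
      funext j
      by_cases hj : j = i
      · subst hj
        obtain ⟨m, hm⟩ := Subgroup.mem_zpowers_iff.1 (z j).2
        rw [Pi.mul_apply, Pi.mul_apply, Pi.mulSingle_eq_same]
        show ((z j : ↥(Subgroup.zpowers a)) : SpecialLinearGroup (Fin 2) F) * b =
          b * ((Function.update z j (z j)⁻¹ j : ↥(Subgroup.zpowers a)) : SpecialLinearGroup (Fin 2) F)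
        rw [Function.update_self]
        show _ = b * ((z j : ↥(Subgroup.zpowers a)) : SpecialLinearGroup (Fin 2) F)⁻¹
        rw [← hm, ← _root_.inv_zpow]
        exact ((SemiconjBy.zpow_right (show SemiconjBy b a⁻¹ a from hab.symm) m)).eq.symm
      · simp [ι, α, hj]
        show ((z j : ↥(Subgroup.zpowers a)) : SpecialLinearGroup (Fin 2) F) =
          ((Function.update z i (z i)⁻¹ j : ↥(Subgroup.zpowers a)) : SpecialLinearGroup (Fin 2) F)
        rw [Function.update_of_ne hj]
    · funext j
      simp only [ev, MonoidHom.comp_apply, α, MonoidHom.coe_mk, OneHom.coe_mk]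
      by_cases hj : j = i
      · subst hj
        rw [Function.update_self, Pi.mulSingle_eq_same]
        refine eq_inv_of_mul_eq_one_left ?_
        rw [← map_mul]
        convert map_one χ
        funext l
        by_cases hl : l = j
        · subst hl
          rw [Pi.mul_apply, Function.update_self, Pi.mulSingle_eq_same]
          exact inv_mul_cancel g₀
        · rw [Pi.mul_apply, Function.update_of_ne hl, Pi.mulSingle_eq_of_ne hl]
          exact one_mul 1
      · rw [Function.update_of_ne hj, Pi.mulSingle_eq_of_ne (Ne.symm hj)]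
        simp only [inv_one]
        congr 1
        rw [Function.update_eq_self_iff, Pi.mulSingle_eq_of_ne (Ne.symm hj)]
  · intro i _
    obtain ⟨χ, hχ, hne⟩ := hw i
    exact ⟨ev χ, hfin.mem_toFinset.2 ⟨χ, hχ, rfl⟩, hne⟩

end Cfsg.Agent.H70
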