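import Cfsg.Agent.H70.ParabolicIndex

set_option autoImplicit false
set_option linter.style.haveILetI false

/-! The degree of the alternating-sum unipotent class functions of `GL_n(q)`. -/

namespace Cfsg.Agent.H70

open Matrix Polynomial

variable {n : ℕ} {F : Type*} [Field F]

theorem qInt_succ (q a : ℕ) : qInt q (a + 1) = 1 + q * qInt q a := by
  simp only [qInt, Finset.sum_range_succ' (fun l => q ^ l), pow_succ, pow_zero, Finset.mul_sum]
  rw [add_comm]
  congr 1
  exact Finset.sum_congr rfl fun l _ => by ring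

theorem qInt_add (q a b : ℕ) : qInt q (a + b) = qInt q a + q ^ a * qInt q b := by
  simp only [qInt, Finset.sum_range_add, Finset.mul_sum, pow_add]

/-- The falling product `[a][a-1]⋯[a-j+1]`. -/
def qDesc (q a j : ℕ) : ℕ := ∏ l ∈ Finset.range j, qInt q (a - l)

theorem qDesc_mul_qFact (q a j : ℕ) (h : j ≤ a) : qDesc q a j * qFact q (a - j) = qFact q a := by
  induction j with
  | zero => simp [qDesc]
  | succ j ih =>
    rw [qDesc, Finset.prod_range_succ, ← qDesc, mul_assoc]
    have e : qInt q (a - j) * qFact q (a - (j + 1)) = qFact q (a - j) := by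
      rw [qFact, qFact, show a - j = a - (j + 1) + 1 by omega, Finset.prod_range_succ, mul_comm]
    rw [e, ih (by omega)]

theorem qDesc_eq_zero (q a j : ℕ) (h : a < j) : qDesc q a j = 0 :=
  Finset.prod_eq_zero (Finset.mem_range.2 h) (by simp [qInt])

theorem pow_choose_mul_qDesc (q a : ℕ) : ∀ j : ℕ,
    ((q : ℂ) ^ j.choose 2) * (qDesc q a j : ℂ) = ∏ l ∈ Finset.range j, ((qInt q a : ℂ) - (qInt q l : ℂ)) := by
  intro j
  induction j with
  | zero => simp [qDesc]
  | succ j ih =>
    rcases Nat.lt_or_ge a j with h | h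
    · rw [qDesc_eq_zero q a (j + 1) (by omega), Nat.cast_zero, mul_zero]
      exact (Finset.prod_eq_zero (Finset.mem_range.2 (show a < j + 1 by omega)) (sub_self _)).symm
    · rw [qDesc, Finset.prod_range_succ, Finset.prod_range_succ, ← qDesc, Nat.cast_mul, ← ih,
        Nat.choose_succ_succ, Nat.choose_one_right, pow_add]
      have e : (qInt q a : ℂ) - (qInt q j : ℂ) = (q : ℂ) ^ j * (qInt q (a - j) : ℂ) := by
        have := qInt_add q j (a - j)
        rw [Nat.add_sub_cancel' h] at this
        rw [this]; push_cast; ring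
      rw [e]; ring

/-- The shifted parts `ν_i + i`. -/
def shifted (ν : Fin n → ℕ) (i : Fin n) : ℕ := ν i + i.val

theorem sum_shifted_sub {ν : Fin n → ℕ} (hsum : ∑ i, ν i = n) (κ : Equiv.Perm (Fin n))
    (h : ∀ i : Fin n, (κ i).val ≤ ν i + i.val) : ∑ i, (ν i + i.val - (κ i).val) = n := by
  have e : ∑ i, (ν i + i.val - (κ i).val) + ∑ i : Fin n, (κ i).val = ∑ i : Fin n, (ν i + i.val) := by
    rw [← Finset.sum_add_distrib]
    exact Finset.sum_congr rfl fun i _ => Nat.sub_add_cancel (h i)
  rw [Equiv.sum_comp κ (fun i : Fin n => i.val), Finset.sum_add_distrib, hsum] at e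
  omega

theorem fixedPointCharacter_one {G : Type*} [Group G] (H : Subgroup G) :
    Cfsg.fixedPointCharacter H (1 : G) = (Nat.card (G ⧸ H) : ℂ) := by
  rw [Cfsg.fixedPointCharacter, MulAction.fixedBy_one_eq_univ, Nat.card_univ]

/-- The degree formula. -/
theorem unipotent_degree [Fintype F] (ν : Fin n → ℕ) (hsum : ∑ i, ν i = n) :
    Cfsg.unipotentCharacterGL n F ν 1 * (Fintype.card F : ℂ) ^ n.choose 3 *
        ∏ i : Fin n, (qFact (Fintype.card F) (ν i + i.val) : ℂ) =
      (qFact (Fintype.card F) n : ℂ) *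
        ∏ i : Fin n, ∏ j ∈ Finset.univ.filter (fun j : Fin n => i < j),
          ((qInt (Fintype.card F) (ν j + j.val) : ℂ) - (qInt (Fintype.card F) (ν i + i.val) : ℂ)) := by
  classical
  set q := Fintype.card F
  let p : Fin n → ℂ[X] := fun j => ∏ l ∈ Finset.range j.val, (X - C (qInt q l : ℂ))
  have hdeg : ∀ j, (p j).natDegree = j.val := fun j => by
    rw [natDegree_prod_of_monic _ _ fun l _ => monic_X_sub_C _]; simp only [natDegree_X_sub_C]; simp
  have hmon : ∀ j, (p j).Monic := fun j => monic_prod_of_monic _ _ fun l _ => monic_X_sub_C _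
  let x : Fin n → ℂ := fun i => (qInt q (ν i + i.val) : ℂ)
  have hRHS : ∏ i : Fin n, ∏ j ∈ Finset.univ.filter (fun j : Fin n => i < j),
      ((qInt q (ν j + j.val) : ℂ) - (qInt q (ν i + i.val) : ℂ)) = (Matrix.vandermonde x).det := by
    rw [Matrix.det_vandermonde]
    refine Finset.prod_congr rfl fun i _ => Finset.prod_congr ?_ fun j _ => rfl
    ext j; simp
  rw [hRHS, det_eval_matrixOfPolynomials_eq_det_vandermonde x p hdeg hmon, ← Matrix.det_transpose,
    Matrix.det_apply', Cfsg.unipotentCharacterGL, Finset.sum_mul, Finset.sum_mul, Finset.mul_sum]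
  refine Finset.sum_congr rfl fun κ _ => ?_
  have hE : (q : ℂ) ^ n.choose 3 = ∏ i : Fin n, (q : ℂ) ^ (κ i).val.choose 2 := by
    rw [Finset.prod_pow_eq_pow_sum, Equiv.sum_comp κ (fun i : Fin n => i.val.choose 2),
      Fin.sum_univ_eq_sum_range (fun i => i.choose 2)]
    congr 1
    clear * - n
    induction n with
    | zero => simp
    | succ k ih => rw [Finset.sum_range_succ, ← ih, Nat.choose_succ_succ k 2, add_comm]
  have hterm : ∏ i : Fin n, ((Matrix.of fun i j => (p j).eval (x i))ᵀ (κ i) i) =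
      (q : ℂ) ^ n.choose 3 * ∏ i : Fin n, (qDesc q (ν i + i.val) (κ i).val : ℂ) := by
    rw [hE, ← Finset.prod_mul_distrib]
    refine Finset.prod_congr rfl fun i _ => ?_
    simp only [Matrix.transpose_apply, Matrix.of_apply, p, x, eval_prod, eval_sub, eval_X, eval_C,
      pow_choose_mul_qDesc]
  rw [hterm]
  by_cases h : ∀ i : Fin n, (κ i).val ≤ ν i + i.val
  · rw [if_pos h]
    have hidx := parabolic_index (F := F) _ (sum_shifted_sub hsum κ h)
    have h0 : ((∏ i : Fin n, qFact q (ν i + i.val - (κ i).val) : ℕ) : ℂ) ≠ 0 :=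
      Nat.cast_ne_zero.2 (Finset.prod_pos fun i _ => qFact_pos q _).ne'
    rw [fixedPointCharacter_one]
    have hidx' : (Nat.card (GL (Fin n) F ⧸ Cfsg.parabolicGL n F fun i => ν i + i.val - (κ i).val) : ℂ) *
        ∏ i : Fin n, (qFact q (ν i + i.val - (κ i).val) : ℂ) = (qFact q n : ℂ) := by exact_mod_cast hidx
    have hfac : ∏ i : Fin n, (qFact q (ν i + i.val) : ℂ) =
        (∏ i : Fin n, (qDesc q (ν i + i.val) (κ i).val : ℂ)) *
          ∏ i : Fin n, (qFact q (ν i + i.val - (κ i).val) : ℂ) := by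
      rw [← Finset.prod_mul_distrib]
      exact Finset.prod_congr rfl fun i _ => by rw [← Nat.cast_mul, qDesc_mul_qFact q _ _ (h i)]
    rw [hfac, ← hidx']
    ring
  · rw [if_neg h]
    push Not at h
    obtain ⟨i, hi⟩ := h
    rw [Finset.prod_eq_zero (f := fun i : Fin n => (qDesc q (ν i + i.val) (κ i).val : ℂ))
      (Finset.mem_univ i) (by rw [qDesc_eq_zero q _ _ hi, Nat.cast_zero])]
    simp

theorem qInt_strictMono {q : ℕ} (hq : 0 < q) : StrictMono (qInt q) := by
  refine strictMono_nat_of_lt_succ fun a => ?_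
  simp [qInt, Finset.sum_range_succ, hq]

/-- The class function is positive at the identity when the parts increase. -/
theorem unipotent_degree_pos [Fintype F] (ν : Fin n → ℕ) (hmono : Monotone ν) (hsum : ∑ i, ν i = n) :
    ∃ r : ℝ, 0 < r ∧ Cfsg.unipotentCharacterGL n F ν 1 = (r : ℂ) := by
  have hq : 0 < Fintype.card F := Fintype.card_pos
  set q := Fintype.card F
  have h := unipotent_degree (F := F) ν hsum
  let D : ℝ := (q : ℝ) ^ n.choose 3 * ∏ i : Fin n, (qFact q (ν i + i.val) : ℝ)
  let N : ℝ := (qFact q n : ℝ) * ∏ i : Fin n, ∏ j ∈ Finset.univ.filter (fun j : Fin n => i < j),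
          ((qInt q (ν j + j.val) : ℝ) - (qInt q (ν i + i.val) : ℝ))
  have hD : 0 < D := mul_pos (pow_pos (by exact_mod_cast hq) _)
    (Finset.prod_pos fun i _ => by exact_mod_cast qFact_pos q _)
  have hN : 0 < N := by
    refine mul_pos (by exact_mod_cast qFact_pos q n) (Finset.prod_pos fun i _ => Finset.prod_pos fun j hj => ?_)
    have hij : i < j := (Finset.mem_filter.1 hj).2
    rw [sub_pos, Nat.cast_lt]
    refine qInt_strictMono hq ?_
    have := hmono hij.le
    have : i.val < j.val := hij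
    omega
  refine ⟨N / D, div_pos hN hD, ?_⟩
  rw [Complex.ofReal_div, eq_div_iff (Complex.ofReal_ne_zero.2 hD.ne')]
  simp only [D, N]
  push_cast
  rw [← mul_assoc]
  exact h

end Cfsg.Agent.H70
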