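import Cfsg.Agent.H70.Weights

set_option autoImplicit false

/-! Characters of a finite vector space through one non-trivial additive character. -/

namespace Cfsg.Agent.H70

variable {F : Type*} [Field F] {k : Type*} [Field k] {ι : Type*} [Fintype ι]

/-- The character `v ↦ ψ(x·v)`. -/
def vecChar (ψ : Multiplicative F →* k) (x : ι → F) : Multiplicative (ι → F) →* k where
  toFun v := ψ (Multiplicative.ofAdd (x ⬝ᵥ v.toAdd))
  map_one' := by simp
  map_mul' v w := by rw [toAdd_mul, dotProduct_add, ofAdd_add, map_mul]

theorem vecChar_apply (ψ : Multiplicative F →* k) (x : ι → F) (v : Multiplicative (ι → F)) :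
    vecChar ψ x v = ψ (Multiplicative.ofAdd (x ⬝ᵥ v.toAdd)) := rfl

theorem vecChar_injective [DecidableEq ι] (ψ : Multiplicative F →* k)
    (hψ : ψ (Multiplicative.ofAdd (1 : F)) ≠ 1) : Function.Injective (vecChar (ι := ι) ψ) := by
  intro x y h
  funext i
  by_contra hne
  have hne' : x i - y i ≠ 0 := sub_ne_zero.2 hne
  have e := DFunLike.congr_fun h (Multiplicative.ofAdd (Pi.single i (x i - y i)⁻¹))
  simp only [vecChar_apply, toAdd_ofAdd, dotProduct_single] at e
  rw [show x i * (x i - y i)⁻¹ = 1 + y i * (x i - y i)⁻¹ by field_simp; ring, ofAdd_add, map_mul] at e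
  refine hψ ((mul_eq_right₀ ?_).1 e)
  intro h0
  have : ψ (Multiplicative.ofAdd (y i * (x i - y i)⁻¹) * Multiplicative.ofAdd (-(y i * (x i - y i)⁻¹))) = 1 := by
    rw [← ofAdd_add, add_neg_cancel, ofAdd_zero, map_one]
  rw [map_mul, h0, zero_mul] at this
  exact zero_ne_one this

/-- Every character of a finite vector space is of the form `vecChar ψ x`. -/
theorem vecChar_surjective [Fintype F] [DecidableEq ι] (ψ : Multiplicative F →* k)
    (hψ : ψ (Multiplicative.ofAdd (1 : F)) ≠ 1) : Function.Surjective (vecChar (ι := ι) ψ) := by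
  classical
  have : Finite (Multiplicative (ι → F)) := Finite.of_equiv _ Multiplicative.ofAdd
  exact surjective_of_card_le _ (vecChar_injective ψ hψ)
    (by rw [Nat.card_congr Multiplicative.toAdd, Nat.card_eq_fintype_card])

/-- The restriction of a character of a vector space to one coordinate line. -/
def lineChar [DecidableEq ι] (χ : Multiplicative (ι → F) →* k) (i : ι) : Multiplicative F →* k :=
  χ.comp (AddMonoidHom.single (fun _ : ι => F) i).toMultiplicative

/-- The characteristic of a finite field stays invertible in a field of another characteristic. -/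
theorem natCast_ne_zero_of_ringChar_ne {F K : Type*} [Field F] [Finite F] [Field K]
    (hK : ringChar K ≠ ringChar F) (p : ℕ) [CharP F p] (L : Type*) [Field L] [Algebra K L] : (p : L) ≠ 0 := by
  have hpp : p.Prime := (CharP.char_is_prime_or_zero F p).resolve_right (CharP.char_ne_zero_of_finite F p)
  intro h0
  apply hK
  have h0' : (p : K) = 0 := (algebraMap K L).injective (by rw [map_natCast, h0, map_zero])
  rw [ringChar.eq F p]
  have : CharP K p := (CharP.charP_iff_prime_eq_zero hpp).2 h0'
  exact ringChar.eq K p

end Cfsg.Agent.H70
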