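import Mathlib

set_option autoImplicit false
set_option linter.style.haveILetI false

/-! Weights of a finite commutative group acting on a finite-dimensional space, and counting lemmas. -/

namespace Cfsg.Agent.H70

variable {k : Type*} [Field k] {V : Type*} [AddCommGroup V] [Module k V]

/-- A character `χ` occurs as a weight of the action `T` of a monoid. -/
def IsWeight {A : Type*} [Monoid A] (T : A →* Module.End k V) (χ : A →* k) : Prop :=
  ∃ v : V, v ≠ 0 ∧ ∀ a, T a v = χ a • v

/-- Distinct weights are at most as many as the dimension. -/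
theorem card_weights_le {A : Type*} [Monoid A] [FiniteDimensional k V] (T : A →* Module.End k V)
    {ι : Type*} [Fintype ι] (f : ι → A →* k) (hf : Function.Injective f) (hw : ∀ i, IsWeight T (f i)) :
    Fintype.card ι ≤ Module.finrank k V := by
  choose v hv0 hv using hw
  refine LinearIndependent.fintype_card_le_finrank (b := v) (Fintype.linearIndependent_iff.2 ?_)
  intro c hc i
  by_contra hci
  obtain ⟨φ, hφ⟩ := Module.Projective.exists_dual_ne_zero k (hv0 i)
  have hind : LinearIndependent k fun i => (f i : A → k) :=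
    (linearIndependent_monoidHom A k).comp f hf
  have h2 : ∑ j, (c j * φ (v j)) • (f j : A → k) = 0 := by
    funext a
    have e := congrArg (fun w => φ (T a w)) hc
    simp only [map_sum, map_smul, hv, map_zero, smul_eq_mul] at e
    simp only [Finset.sum_apply, Pi.smul_apply, smul_eq_mul, Pi.zero_apply]
    rw [← e]
    exact Finset.sum_congr rfl fun j _ => by ring
  exact mul_ne_zero hci hφ (Fintype.linearIndependent_iff.1 hind _ h2 i)

/-- Weights are moved by automorphisms realised inside the group. -/
theorem IsWeight.conj {G A : Type*} [Group G] [Monoid A] {T : G →* Module.End k V} {e : A →* G}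
    {χ : A →* k} (h : IsWeight (T.comp e) χ) (g : G) (α : A →* A)
    (hg : ∀ a, e a * g = g * e (α a)) : IsWeight (T.comp e) (χ.comp α) := by
  obtain ⟨v, hv0, hv⟩ := h
  refine ⟨T g v, fun h0 => hv0 ?_, fun a => ?_⟩
  · have : T (g⁻¹ * g) v = 0 := by rw [map_mul, Module.End.mul_apply, h0, map_zero]
    simpa using this
  · have e1 : T (e a) (T g v) = T g (T (e (α a)) v) := by
      rw [← Module.End.mul_apply, ← map_mul, hg, map_mul, Module.End.mul_apply]
    simpa [e1] using congrArg (T g) (hv (α a))

/-- A commuting family acting on a non-zero invariant subspace has a common eigenvector in it. -/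
theorem exists_common_eigenvector [IsAlgClosed k] [FiniteDimensional k V] {A : Type*}
    (T : A → Module.End k V) (hcomm : ∀ a b, Commute (T a) (T b)) :
    ∀ W : Submodule k V, W ≠ ⊥ → (∀ a, ∀ w ∈ W, T a w ∈ W) →
      ∃ (v : V) (χ : A → k), v ∈ W ∧ v ≠ 0 ∧ ∀ a, T a v = χ a • v := by
  intro W
  induction hd : Module.finrank k W using Nat.strong_induction_on generalizing W with
  | _ d ih =>
    intro hW hinv
    by_cases hs : ∀ a, ∃ c : k, ∀ w ∈ W, T a w = c • w
    · choose χ hχ using hs
      obtain ⟨v, hvW, hv⟩ := W.ne_bot_iff.1 hW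
      exact ⟨v, χ, hvW, hv, fun a => hχ a v hvW⟩
    · push Not at hs
      obtain ⟨a, ha⟩ := hs
      haveI : Nontrivial W := Submodule.nontrivial_iff_ne_bot.2 hW
      obtain ⟨c, hc⟩ := Module.End.exists_eigenvalue ((T a).restrict (hinv a))
      obtain ⟨w, hw⟩ := hc.exists_hasEigenvector
      have hwe : T a (w : V) = c • (w : V) := congrArg Subtype.val hw.apply_eq_smul
      set W' : Submodule k V := W ⊓ Module.End.eigenspace (T a) c with hW'
      have hlt : W' < W := by
        refine lt_of_le_of_ne inf_le_left fun he => ?_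
        obtain ⟨x, hxW, hx⟩ := ha c
        exact hx (Module.End.mem_eigenspace_iff.1 (he ▸ hxW : x ∈ W').2)
      obtain ⟨v, χ, hv, hv0, hχ⟩ := ih _ (hd ▸ Submodule.finrank_lt_finrank_of_lt hlt) W' rfl
        (W'.ne_bot_iff.2 ⟨w, ⟨w.2, Module.End.mem_eigenspace_iff.2 hwe⟩,
          fun h0 => hw.2 (Subtype.ext h0)⟩)
        (fun b x hx => ⟨hinv b x hx.1, Module.End.mem_eigenspace_iff.2 (by
          rw [← Module.End.mul_apply, (hcomm a b).eq, Module.End.mul_apply,
            Module.End.mem_eigenspace_iff.1 hx.2, map_smul])⟩)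
      exact ⟨v, χ, hv.1, hv0, hχ⟩

/-- A non-trivially acting element of order prime to the characteristic sees a non-trivial weight. -/
theorem exists_weight_ne_one [IsAlgClosed k] [FiniteDimensional k V] {A : Type*} [CommMonoid A]
    (T : A →* Module.End k V) (a : A) {m : ℕ} (hm : (m : k) ≠ 0) (ha : a ^ m = 1) (hT : T a ≠ 1) :
    ∃ χ : A →* k, IsWeight T χ ∧ χ a ≠ 1 := by
  set N : Module.End k V := T a - 1 with hN
  have hNapp : ∀ x, N x = T a x - x := fun x => rfl
  have hN0 : LinearMap.range N ≠ ⊥ := by
    rw [ne_eq, LinearMap.range_eq_bot, hN, sub_eq_zero]; exact hT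
  have hinv : ∀ b, ∀ w ∈ LinearMap.range N, T b w ∈ LinearMap.range N := by
    rintro b _ ⟨u, rfl⟩
    refine ⟨T b u, ?_⟩
    rw [hNapp, hNapp, map_sub, ← Module.End.mul_apply, ← Module.End.mul_apply, ← map_mul, ← map_mul,
      mul_comm a b]
  obtain ⟨v, χ, hvR, hv0, hv⟩ := exists_common_eigenvector (fun b => T b)
    (fun b c => by rw [Commute, SemiconjBy, ← map_mul, ← map_mul, mul_comm]) _ hN0 hinv
  let χ' : A →* k :=
    { toFun := χ
      map_one' := smul_left_injective k hv0 (show χ 1 • v = (1 : k) • v by rw [← hv]; simp)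
      map_mul' := fun b c => smul_left_injective k hv0 (show χ (b * c) • v = (χ b * χ c) • v by
        rw [← hv, map_mul, Module.End.mul_apply, hv, map_smul, hv, smul_smul, mul_comm]) }
  refine ⟨χ', ⟨v, hv0, hv⟩, fun h1 => ?_⟩
  change χ a = 1 at h1
  obtain ⟨u, hu⟩ := hvR
  have hu' : T a u = u + v := by rw [← hu, hNapp]; abel
  have hTv : T a v = v := by rw [hv, h1, one_smul]
  have key : ∀ j : ℕ, T (a ^ j) u = u + (j : k) • v := by
    intro j
    induction j with
    | zero => simp
    | succ j ih =>
      rw [pow_succ', map_mul, Module.End.mul_apply, ih, map_add, map_smul, hu', hTv, Nat.cast_succ,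
        add_smul, one_smul]
      abel
  have := key m
  rw [ha, map_one, Module.End.one_apply, left_eq_add, smul_eq_zero] at this
  exact this.elim hm hv0

/-- All characters of a finite monoid are parametrised by any injective family of full size. -/
theorem surjective_of_card_le {A : Type*} [Monoid A] [Finite A] {ι : Type*} [Fintype ι]
    (f : ι → A →* k) (hf : Function.Injective f) (hc : Nat.card A ≤ Fintype.card ι) :
    Function.Surjective f := by
  classical
  haveI := Fintype.ofFinite A
  intro χ
  by_contra hχ
  push Not at hχ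
  let g : Option ι → A →* k := fun o => o.elim χ f
  have hg : Function.Injective g := by
    rintro (_ | i) (_ | j) h
    · rfl
    · exact absurd h.symm (hχ j)
    · exact absurd h (hχ i)
    · exact congrArg some (hf h)
  have := ((linearIndependent_monoidHom A k).comp g hg).fintype_card_le_finrank
  simp [Nat.card_eq_fintype_card] at this hc
  omega

/-- A finite set of tuples closed under inverting entries, moving each coordinate, has `≥ 2n` elements. -/
theorem two_mul_card_le_of_flip {ι : Type*} [DecidableEq ι] [Fintype ι] [DecidableEq k] (I : Finset ι) :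
    ∀ P : Finset (ι → k), (∀ x ∈ P, ∀ i, x i ≠ 0) →
      (∀ x ∈ P, ∀ i ∈ I, Function.update x i (x i)⁻¹ ∈ P) →
      (∀ i ∈ I, ∃ x ∈ P, x i ^ 2 ≠ 1) → 2 * I.card ≤ P.card := by
  induction hI : I.card using Nat.strong_induction_on generalizing I with
  | _ c ih =>
    intro P h0 hflip hcov
    subst hI
    rcases I.eq_empty_or_nonempty with rfl | ⟨i, hi⟩
    · simp
    obtain ⟨x, hx, hxi⟩ := hcov i hi
    set K := I.filter fun j => x j ^ 2 ≠ 1 with hK
    let fl : Finset ι → ι → k := fun S j => if j ∈ S then (x j)⁻¹ else x j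
    have hflm : ∀ S ⊆ K, fl S ∈ P := by
      intro S
      induction S using Finset.induction with
      | empty => intro _; simpa [fl] using hx
      | insert j S hj ih2 =>
        intro hS
        have := hflip _ (ih2 ((Finset.subset_insert _ _).trans hS)) j
          (Finset.mem_filter.1 (hS (Finset.mem_insert_self _ _))).1
        convert this using 1
        funext l
        by_cases hl : l = j
        · subst hl; simp [fl, hj]
        · simp [fl, hl, Function.update_of_ne]
    set O := K.powerset.image fl with hO
    have hOP : O ⊆ P := by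
      intro y hy
      obtain ⟨S, hS, rfl⟩ := Finset.mem_image.1 hy
      exact hflm S (Finset.mem_powerset.1 hS)
    have hne : ∀ j ∈ K, (x j)⁻¹ ≠ x j := by
      intro j hj he
      refine (Finset.mem_filter.1 hj).2 ?_
      rw [sq]; nth_rewrite 1 [← he]; exact inv_mul_cancel₀ (h0 x hx j)
    have hOc : O.card = 2 ^ K.card := by
      rw [hO, Finset.card_image_of_injOn, Finset.card_powerset]
      intro S hS S' hS' h
      have hS := Finset.mem_powerset.1 (Finset.mem_coe.1 hS)
      have hS' := Finset.mem_powerset.1 (Finset.mem_coe.1 hS')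
      ext j
      have e := congrFun h j
      by_cases h1 : j ∈ S <;> by_cases h2 : j ∈ S' <;> simp [fl, h1, h2] at e ⊢
      · exact hne j (hS h1) e
      · exact hne j (hS' h2) e.symm
    have hOfix : ∀ y ∈ O, ∀ j ∈ I \ K, y j ^ 2 = 1 := by
      intro y hy j hj
      obtain ⟨S, hS, rfl⟩ := Finset.mem_image.1 hy
      obtain ⟨hjI, hjK⟩ := Finset.mem_sdiff.1 hj
      have hjS : j ∉ S := fun h => hjK (Finset.mem_powerset.1 hS h)
      have : x j ^ 2 = 1 := by by_contra h; exact hjK (Finset.mem_filter.2 ⟨hjI, h⟩)
      simpa [fl, hjS] using this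
    have hiK : i ∈ K := Finset.mem_filter.2 ⟨hi, hxi⟩
    have hlt : (I \ K).card < I.card :=
      Finset.card_lt_card ⟨Finset.sdiff_subset, fun h => (Finset.mem_sdiff.1 (h hi)).2 hiK⟩
    have hrec := ih _ hlt (I \ K) rfl (P \ O) (fun y hy => h0 y (Finset.mem_sdiff.1 hy).1) (by
      intro y hy j hj
      obtain ⟨hyP, hyO⟩ := Finset.mem_sdiff.1 hy
      refine Finset.mem_sdiff.2 ⟨hflip y hyP j (Finset.mem_sdiff.1 hj).1, fun hO' => ?_⟩
      have h2 := hOfix _ hO' j hj
      rw [Function.update_self, inv_pow, inv_eq_one] at h2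
      have e : (y j)⁻¹ = y j := by
        rw [inv_eq_iff_eq_inv, eq_comm, inv_eq_of_mul_eq_one_left]; rw [← sq]; exact h2
      rw [e, Function.update_eq_self] at hO'
      exact hyO hO') (by
      intro j hj
      obtain ⟨y, hy, hyj⟩ := hcov j (Finset.mem_sdiff.1 hj).1
      exact ⟨y, Finset.mem_sdiff.2 ⟨hy, fun h => hyj (hOfix y h j hj)⟩, hyj⟩)
    have hP : (P \ O).card + O.card = P.card := Finset.card_sdiff_add_card_eq_card hOP
    have hI : (I \ K).card + K.card = I.card := Finset.card_sdiff_add_card_eq_card (Finset.filter_subset _ _)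
    have h2K : 2 * K.card ≤ 2 ^ K.card := by
      have := K.card_pos.2 ⟨i, hiK⟩
      obtain ⟨c, hc⟩ : ∃ c, K.card = c + 1 := ⟨K.card - 1, by omega⟩
      rw [hc, pow_succ]
      have := c.lt_two_pow_self
      omega
    omega

/-- The linear representation over the algebraic closure attached to a matrix representation. -/
noncomputable def closureRep {G : Type*} [Group G] {K : Type*} [Field K] {d : ℕ}
    (ρ : G →* GL (Fin d) K) : G →* Module.End (AlgebraicClosure K) (Fin d → AlgebraicClosure K) :=
  (Matrix.toLinAlgEquiv' (R := AlgebraicClosure K) (n := Fin d)).toAlgHom.toMonoidHom.comp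
    ((algebraMap K (AlgebraicClosure K)).mapMatrix.toMonoidHom.comp
      ((Units.coeHom (Matrix (Fin d) (Fin d) K)).comp ρ))

/-- Kernel of the representation over the algebraic closure. -/
theorem closureRep_eq_one_iff {G : Type*} [Group G] {K : Type*} [Field K] {d : ℕ}
    (ρ : G →* GL (Fin d) K) (g : G) : closureRep ρ g = 1 ↔ ρ g = 1 := by
  constructor
  · intro h
    have h1 : (algebraMap K (AlgebraicClosure K)).mapMatrix (ρ g : Matrix (Fin d) (Fin d) K) =
        (algebraMap K (AlgebraicClosure K)).mapMatrix 1 := by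
      rw [map_one]
      apply (Matrix.toLinAlgEquiv' (R := AlgebraicClosure K) (n := Fin d)).injective
      rw [map_one]
      exact h
    exact Units.ext (Matrix.map_injective (algebraMap K (AlgebraicClosure K)).injective h1)
  · intro h; simp [closureRep, h]

end Cfsg.Agent.H70
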